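import Mathlib

/-!
# Elementary lemmas on orders of subgroups (helper18, S5539)
-/

set_option autoImplicit false
set_option linter.unusedSectionVars false
set_option linter.style.haveILetI false

namespace Cfsg.Agent.R2.M7.Elem

open Subgroup

variable {G : Type*} [Group G] [Finite G]

theorem card_eq_relIndex {A C : Subgroup G} (h : A ≤ C) : Nat.card C = Nat.card A * A.relIndex C := by
  have h1 := (A.subgroupOf C).card_mul_index
  rw [Nat.card_congr (Subgroup.subgroupOfEquivOfLe h).toEquiv] at h1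
  exact h1.symm

/-- `|A| |B| ≤ |C| |A ∩ B|` -/
theorem mul_le {A B C : Subgroup G} (hA : A ≤ C) (hB : B ≤ C) :
    Nat.card A * Nat.card B ≤ Nat.card C * Nat.card (A ⊓ B : Subgroup G) := by
  have h1 : Nat.card B = Nat.card (A ⊓ B : Subgroup G) * (A ⊓ B).relIndex B := card_eq_relIndex inf_le_right
  have h2 : (A ⊓ B).relIndex B = A.relIndex B := inf_relIndex_right A B
  have h3 : Nat.card C = Nat.card A * A.relIndex C := card_eq_relIndex hA
  have h4 : A.relIndex B ≤ A.relIndex C := by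
    apply relIndex_le_of_le_right hB
    intro h
    rw [h, mul_zero] at h3
    exact Nat.card_pos.ne' h3
  rw [h1, h2, h3]
  calc Nat.card A * (Nat.card (A ⊓ B : Subgroup G) * A.relIndex B)
      = Nat.card A * Nat.card (A ⊓ B : Subgroup G) * A.relIndex B := by ring
    _ ≤ Nat.card A * Nat.card (A ⊓ B : Subgroup G) * A.relIndex C := Nat.mul_le_mul_left _ h4
    _ = _ := by ring

theorem card_le {A B : Subgroup G} (h : A ≤ B) : Nat.card A ≤ Nat.card B := card_le_of_le h

/-- a proper subgroup -/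
theorem two_mul_le {A B : Subgroup G} (h : A ≤ B) (hne : ¬ B ≤ A) : 2 * Nat.card A ≤ Nat.card B := by
  have h1 := card_eq_relIndex h
  have h2 : A.relIndex B ≠ 1 := fun h => hne (relIndex_eq_one.1 h)
  have h3 : A.relIndex B ≠ 0 := by
    intro h
    rw [h, mul_zero] at h1
    exact Nat.card_pos.ne' h1
  rw [h1, mul_comm]
  apply Nat.mul_le_mul_left
  omega

theorem two_mul_le' {A B : Subgroup G} (h : A ≤ B) {x : G} (hx : x ∈ B) (hxA : x ∉ A) : 2 * Nat.card A ≤ Nat.card B :=
  two_mul_le h fun h' => hxA (h' hx)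

/-- index at most 2 -/
theorem le_two {S R : Subgroup G} (h : ∀ a ∈ S, ∀ b ∈ S, a ∉ R → b ∉ R → a⁻¹ * b ∈ R) :
    Nat.card S ≤ 2 * Nat.card (S ⊓ R : Subgroup G) := by
  classical
  by_cases hS : S ≤ R
  · rw [inf_eq_left.2 hS]
    omega
  · obtain ⟨a, ha, haR⟩ := Set.not_subset.1 hS
    have h1 : Nat.card S ≤ Nat.card ((S ⊓ R : Subgroup G) ⊕ (S ⊓ R : Subgroup G)) := by
      apply Nat.card_le_card_of_injective
        (fun s : S => if hs : (s : G) ∈ R then Sum.inl ⟨s, s.2, hs⟩
          else Sum.inr ⟨a⁻¹ * s, S.mul_mem (S.inv_mem ha) s.2, h a ha s s.2 haR hs⟩)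
      intro s t hst
      by_cases hs : (s : G) ∈ R <;> by_cases ht : (t : G) ∈ R <;> simp only [hs, ht, dif_pos, dif_neg, not_false_eq_true] at hst
      · have := congrArg Subtype.val (Sum.inl.inj hst)
        exact Subtype.ext this
      · exact absurd hst (by simp)
      · exact absurd hst (by simp)
      · have := congrArg Subtype.val (Sum.inr.inj hst)
        exact Subtype.ext (mul_left_cancel this)
    rw [Nat.card_sum] at h1
    omega

/-- the converse of `le_two` -/
theorem mem_of_le_two {S R : Subgroup G} (hRS : R ≤ S) (h : Nat.card S ≤ 2 * Nat.card R) {a b : G} (ha : a ∈ S)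
    (hb : b ∈ S) (haR : a ∉ R) (hbR : b ∉ R) : a⁻¹ * b ∈ R := by
  have h1 := card_eq_relIndex hRS
  have hpos : 0 < Nat.card R := Nat.card_pos
  have h2 : R.relIndex S ≤ 2 := by
    rw [h1, mul_comm] at h
    exact Nat.le_of_mul_le_mul_right h hpos
  have h3 : R.relIndex S ≠ 1 := fun h => haR (relIndex_eq_one.1 h ha)
  have h4 : R.relIndex S ≠ 0 := by
    intro h
    rw [h, mul_zero] at h1
    exact Nat.card_pos.ne' h1
  have h5 : (R.subgroupOf S).index = 2 := by
    show R.relIndex S = 2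
    omega
  have h6 := mul_mem_iff_of_index_two h5 (a := (⟨a, ha⟩ : S)⁻¹) (b := ⟨b, hb⟩)
  rw [inv_mem_iff] at h6
  simp only [mem_subgroupOf, coe_mul, coe_inv] at h6
  rw [h6]
  tauto

theorem exists_ne_one {E : Subgroup G} (h : 1 < Nat.card E) : ∃ x ∈ E, x ≠ 1 := by
  by_contra hcon
  push Not at hcon
  have : E = ⊥ := (Subgroup.eq_bot_iff_forall E).2 hcon
  rw [this, Subgroup.card_bot] at h
  omega

/-- the action by conjugation -/
@[reducible] def act {T E : Subgroup G} (hinv : ∀ t ∈ T, ∀ a ∈ E, t * a * t⁻¹ ∈ E) : MulAction T E where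
  smul t a := ⟨t * a * (t : G)⁻¹, hinv t t.2 a a.2⟩
  one_smul a := Subtype.ext (by show (1 : G) * a * (1 : G)⁻¹ = a; group)
  mul_smul s t a := Subtype.ext (by
    show (s : G) * t * a * ((s : G) * t)⁻¹ = s * (t * a * (t : G)⁻¹) * (s : G)⁻¹
    group)

/-- a 2-group acting on a nontrivial elementary abelian 2-group has a nontrivial fixed point -/
theorem fixed {T E : Subgroup G} (hT : IsPGroup 2 T) (hE : ∀ a ∈ E, a * a = 1) {e : G} (he : e ∈ E) (hne : e ≠ 1)
    (hinv : ∀ t ∈ T, ∀ a ∈ E, t * a * t⁻¹ ∈ E) : ∃ x ∈ E, x ≠ 1 ∧ ∀ t ∈ T, t * x = x * t := by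
  letI := act hinv
  have hd : 2 ∣ Nat.card E := by
    have h1 : orderOf (⟨e, he⟩ : E) = 2 := by
      apply orderOf_eq_prime
      · rw [pow_two]
        exact Subtype.ext (hE e he)
      · intro h
        exact hne (congrArg Subtype.val h)
    rw [← h1]
    exact orderOf_dvd_natCard _
  have h1 : (1 : E) ∈ MulAction.fixedPoints T E := by
    intro t
    apply Subtype.ext
    show (t : G) * 1 * (t : G)⁻¹ = 1
    group
  obtain ⟨b, hb, hb1⟩ := hT.exists_fixed_point_of_prime_dvd_card_of_fixed_point E hd h1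
  refine ⟨b, b.2, ?_, ?_⟩
  · intro h
    exact hb1 (Subtype.ext h.symm)
  · intro t ht
    have h2 := congrArg Subtype.val (hb ⟨t, ht⟩)
    have h3 : t * (b : G) * t⁻¹ = b := h2
    calc t * (b : G) = t * b * t⁻¹ * t := by group
      _ = b * t := by rw [h3]

/-- `⟨D, x⟩` for an involution `x` centralising `D` -/
theorem exists_adj {D : Subgroup G} {x : G} (hx : x * x = 1) (hc : ∀ a ∈ D, x * a = a * x) :
    ∃ D' : Subgroup G, (∀ a, a ∈ D' ↔ a ∈ D ∨ x * a ∈ D) ∧ D ≤ D' ∧ x ∈ D' ∧ Nat.card D' ≤ 2 * Nat.card D ∧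
      (x ∉ D → 2 * Nat.card D ≤ Nat.card D') := by
  have hcx : ∀ a, x * a ∈ D → x * a = a * x := by
    intro a ha
    have h1 := hc _ ha
    calc x * a = x * a * (x * x) := by rw [hx, mul_one]
      _ = (x * a * x) * x := by group
      _ = (x * (x * a)) * x := by rw [h1]
      _ = ((x * x) * a) * x := by group
      _ = a * x := by rw [hx, one_mul]
  let D' : Subgroup G := {
    carrier := {a | a ∈ D ∨ x * a ∈ D}
    one_mem' := Or.inl D.one_mem
    mul_mem' := by
      rintro a b (ha | ha) (hb | hb)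
      · exact Or.inl (D.mul_mem ha hb)
      · right
        have h1 : x * (a * b) = a * (x * b) := by
          rw [← mul_assoc, hc a ha, mul_assoc]
        rw [h1]
        exact D.mul_mem ha hb
      · right
        rw [← mul_assoc]
        exact D.mul_mem ha hb
      · left
        have h1 : a * b = (x * a) * (x * b) := by
          calc a * b = a * (x * x) * b := by rw [hx, mul_one]
            _ = (a * x) * (x * b) := by group
            _ = (x * a) * (x * b) := by rw [hcx a ha]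
        rw [h1]
        exact D.mul_mem ha hb
    inv_mem' := by
      rintro a (ha | ha)
      · exact Or.inl (D.inv_mem ha)
      · right
        have h1 : x * a⁻¹ = (x * a)⁻¹ := by
          rw [hcx a ha, mul_inv_rev]
          congr 1
          exact (inv_eq_of_mul_eq_one_right hx).symm
        rw [h1]
        exact D.inv_mem ha }
  have hle : D ≤ D' := fun a ha => Or.inl ha
  have hxD : x ∈ D' := Or.inr (by rw [hx]; exact D.one_mem)
  refine ⟨D', fun a => Iff.rfl, hle, hxD, ?_, ?_⟩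
  · have h1 : Nat.card D' ≤ 2 * Nat.card (D' ⊓ D : Subgroup G) := by
      apply le_two
      intro a ha b hb haD hbD
      have ha' : x * a ∈ D := ha.resolve_left haD
      have hb' : x * b ∈ D := hb.resolve_left hbD
      have h1 : a⁻¹ * b = (x * a)⁻¹ * (x * b) := by
        rw [mul_inv_rev]
        group
      rw [h1]
      exact D.mul_mem (D.inv_mem ha') hb'
    rwa [inf_eq_right.2 hle] at h1
  · intro h
    exact two_mul_le' hle hxD h

/-- a subgroup covered by three subgroups, one of index at least 4 -/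
theorem cover {S A B C : Subgroup G} (h : ∀ x ∈ S, x ∈ A ∨ x ∈ B ∨ x ∈ C)
    (hC : 4 * Nat.card (S ⊓ C : Subgroup G) ≤ Nat.card S) : S ≤ A ∨ S ≤ B := by
  by_contra hcon
  push Not at hcon
  obtain ⟨hA, hB⟩ := hcon
  have hA' : 2 * Nat.card (S ⊓ A : Subgroup G) ≤ Nat.card S :=
    two_mul_le inf_le_left fun h => hA (h.trans inf_le_right)
  have hB' : 2 * Nat.card (S ⊓ B : Subgroup G) ≤ Nat.card S :=
    two_mul_le inf_le_left fun h => hB (h.trans inf_le_right)
  have hAB : Nat.card (S ⊓ A : Subgroup G) * Nat.card (S ⊓ B : Subgroup G) ≤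
      Nat.card S * Nat.card ((S ⊓ A) ⊓ (S ⊓ B) : Subgroup G) := mul_le inf_le_left inf_le_left
  have e1 : ∀ K : Subgroup G, Nat.card K = (K : Set G).ncard := fun K => rfl
  have h1 := Set.ncard_union_add_ncard_inter ((S ⊓ A : Subgroup G) : Set G) ((S ⊓ B : Subgroup G) : Set G)
    (Set.toFinite _) (Set.toFinite _)
  have h2 := Set.ncard_union_add_ncard_inter (((S ⊓ A : Subgroup G) : Set G) ∪ ((S ⊓ B : Subgroup G) : Set G))
    ((S ⊓ C : Subgroup G) : Set G) (Set.toFinite _) (Set.toFinite _)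
  have h3 : (S : Set G).ncard ≤ ((((S ⊓ A : Subgroup G) : Set G) ∪ ((S ⊓ B : Subgroup G) : Set G)) ∪
      ((S ⊓ C : Subgroup G) : Set G)).ncard := by
    apply Set.ncard_le_ncard _ (Set.toFinite _)
    intro x hx
    rcases h x hx with h | h | h
    · exact Or.inl (Or.inl ⟨hx, h⟩)
    · exact Or.inl (Or.inr ⟨hx, h⟩)
    · exact Or.inr ⟨hx, h⟩
  have h4 : 0 < ((((S ⊓ A : Subgroup G) : Set G) ∪ ((S ⊓ B : Subgroup G) : Set G)) ∩
      ((S ⊓ C : Subgroup G) : Set G)).ncard := by
    rw [Set.ncard_pos (Set.toFinite _)]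
    exact ⟨1, Or.inl (Subgroup.one_mem _), Subgroup.one_mem _⟩
  have h5 : ((S ⊓ A : Subgroup G) : Set G) ∩ ((S ⊓ B : Subgroup G) : Set G) = ((S ⊓ A ⊓ (S ⊓ B) : Subgroup G) : Set G) :=
    rfl
  rw [h5] at h1
  rw [e1] at hA' hB' hC
  rw [e1, e1, e1, e1] at hAB
  rw [e1] at hA' hB' hC
  generalize (S : Set G).ncard = n at *
  generalize ((S ⊓ A : Subgroup G) : Set G).ncard = a at *
  generalize ((S ⊓ B : Subgroup G) : Set G).ncard = b at *
  generalize ((S ⊓ A ⊓ (S ⊓ B) : Subgroup G) : Set G).ncard = c at *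
  generalize ((S ⊓ C : Subgroup G) : Set G).ncard = d at *
  generalize (((S ⊓ A : Subgroup G) : Set G) ∪ ((S ⊓ B : Subgroup G) : Set G)).ncard = u at *
  generalize ((((S ⊓ A : Subgroup G) : Set G) ∪ ((S ⊓ B : Subgroup G) : Set G)) ∩ ((S ⊓ C : Subgroup G) : Set G)).ncard = v at *
  generalize ((((S ⊓ A : Subgroup G) : Set G) ∪ ((S ⊓ B : Subgroup G) : Set G)) ∪ ((S ⊓ C : Subgroup G) : Set G)).ncard = w at *
  -- n ≤ w = u + d - v, u = a + b - c, a b ≤ n c
  have hn : 0 < n := by omega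
  have k1 : n + c + 1 ≤ a + b + d := by omega
  have k2 : 4 * n + 4 * c + 4 ≤ 4 * a + 4 * b + n := by omega
  zify at *
  nlinarith [mul_nonneg (sub_nonneg.2 hA') (sub_nonneg.2 hB')]

omit [Finite G] in
theorem mem_sup {A B : Subgroup G} (h : ∀ a ∈ A, ∀ b ∈ B, a * b = b * a) {x : G} (hx : x ∈ A ⊔ B) :
    ∃ a ∈ A, ∃ b ∈ B, x = a * b := by
  let K : Subgroup G := {
    carrier := {x | ∃ a ∈ A, ∃ b ∈ B, x = a * b}
    one_mem' := ⟨1, A.one_mem, 1, B.one_mem, (one_mul 1).symm⟩
    mul_mem' := by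
      rintro _ _ ⟨a, ha, b, hb, rfl⟩ ⟨c, hc, d, hd, rfl⟩
      refine ⟨a * c, A.mul_mem ha hc, b * d, B.mul_mem hb hd, ?_⟩
      calc a * b * (c * d) = a * (b * c) * d := by group
        _ = a * (c * b) * d := by rw [h c hc b hb]
        _ = _ := by group
    inv_mem' := by
      rintro _ ⟨a, ha, b, hb, rfl⟩
      refine ⟨a⁻¹, A.inv_mem ha, b⁻¹, B.inv_mem hb, ?_⟩
      rw [mul_inv_rev, h a⁻¹ (A.inv_mem ha) b⁻¹ (B.inv_mem hb)] }
  have h1 : A ⊔ B ≤ K := by
    apply sup_le
    · intro a ha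
      exact ⟨a, ha, 1, B.one_mem, (mul_one a).symm⟩
    · intro b hb
      exact ⟨1, A.one_mem, b, hb, (one_mul b).symm⟩
  exact h1 hx

/-- a group of order 4 -/
theorem four_elts {E : Subgroup G} (hc : Nat.card E ≤ 4) {a b : G} (ha : a ∈ E) (hb : b ∈ E) (ha1 : a ≠ 1)
    (hb1 : b ≠ 1) (hab : a ≠ b) (hab1 : a * b ≠ 1) : ∀ x ∈ E, x = 1 ∨ x = a ∨ x = b ∨ x = a * b := by
  classical
  intro x hx
  by_contra hcon
  push Not at hcon
  obtain ⟨h1, h2, h3, h4⟩ := hcon
  have h5 : ({1, a, b, a * b, x} : Finset G).card = 5 := by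
    rw [Finset.card_insert_of_notMem, Finset.card_insert_of_notMem, Finset.card_insert_of_notMem,
      Finset.card_insert_of_notMem, Finset.card_singleton]
    · simp only [Finset.mem_singleton]
      exact fun h => h4 h.symm
    · simp only [Finset.mem_insert, Finset.mem_singleton, not_or]
      refine ⟨fun h => ha1 ?_, fun h => h3 h.symm⟩
      exact mul_right_cancel (b := b) (by rw [one_mul]; exact h.symm)
    · simp only [Finset.mem_insert, Finset.mem_singleton, not_or]
      refine ⟨hab, fun h => hb1 ?_, fun h => h2 h.symm⟩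
      exact mul_left_cancel (a := a) (by rw [mul_one]; exact h.symm)
    · simp only [Finset.mem_insert, Finset.mem_singleton, not_or]
      exact ⟨fun h => ha1 h.symm, fun h => hb1 h.symm, fun h => hab1 h.symm, fun h => h1 h.symm⟩
  have h6 : (({1, a, b, a * b, x} : Finset G) : Set G) ⊆ (E : Set G) := by
    intro w hw
    simp only [Finset.coe_insert, Finset.coe_singleton, Set.mem_insert_iff, Set.mem_singleton_iff] at hw
    rcases hw with rfl | rfl | rfl | rfl | rfl
    · exact E.one_mem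
    · exact ha
    · exact hb
    · exact E.mul_mem ha hb
    · exact hx
  have h7 := Set.ncard_le_ncard h6 (Set.toFinite _)
  rw [Set.ncard_coe_finset, h5] at h7
  have h8 : Nat.card E = (E : Set G).ncard := rfl
  omega

end Cfsg.Agent.R2.M7.Elem
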