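import Cfsg.Agent.R2.M7.Geo
import Cfsg.Agent.R2.M7.Elem

/-!
# The elementary theory of one ark (helper18, S5539)
-/

set_option autoImplicit false
set_option linter.unusedSectionVars false

namespace Cfsg.Agent.R2.M7.Ark

open Geo Elem

variable {G : Type*} [Group G] {Γ : Geo G}

theorem mem_CC {O : Subgroup G} {x : G} : x ∈ CC O ↔ ∀ a ∈ O, a * x = x * a :=
  Subgroup.mem_centralizer_iff

theorem mem_cj {g x : G} {O : Subgroup G} : x ∈ cj g O ↔ g⁻¹ * x * g ∈ O := by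
  show x ∈ O.map (MulAut.conj g).toMonoidHom ↔ _
  rw [Subgroup.mem_map]
  constructor
  · rintro ⟨a, ha, rfl⟩
    have h : g⁻¹ * ((MulAut.conj g).toMonoidHom a) * g = a := by
      show g⁻¹ * (g * a * g⁻¹) * g = a
      group
    rwa [h]
  · intro h
    refine ⟨_, h, ?_⟩
    show g * (g⁻¹ * x * g) * g⁻¹ = x
    group

theorem conj_mem_cj {g x : G} {O : Subgroup G} : g * x * g⁻¹ ∈ cj g O ↔ x ∈ O := by
  rw [mem_cj]
  have e : g⁻¹ * (g * x * g⁻¹) * g = x := by group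
  rw [e]

theorem conj_mem_CC {g x : G} {O : Subgroup G} (hx : x ∈ CC O) : g * x * g⁻¹ ∈ CC (cj g O) := by
  rw [mem_CC] at hx ⊢
  intro a ha
  rw [mem_cj] at ha
  have h := hx _ ha
  calc a * (g * x * g⁻¹) = g * ((g⁻¹ * a * g) * x) * g⁻¹ := by group
    _ = g * (x * (g⁻¹ * a * g)) * g⁻¹ := by rw [h]
    _ = _ := by group

/-! ### `kap` and `bet` -/

section Form

theorem kap_eq_zero {x : G} : Γ.kap x = 0 ↔ x = 1 ∨ x ∈ Γ.Pt := by
  classical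
  unfold Geo.kap
  split_ifs with h
  · simp [h]
  · simp only [one_ne_zero, false_iff]
    exact h

theorem kap_one : Γ.kap (1 : G) = 0 := kap_eq_zero.2 (Or.inl rfl)

theorem kap_pt {x : G} (hx : x ∈ Γ.Pt) : Γ.kap x = 0 := kap_eq_zero.2 (Or.inr hx)

theorem two_cases (a : ZMod 2) : a = 0 ∨ a = 1 := by
  revert a; decide

theorem add_self (a : ZMod 2) : a + a = 0 := by
  revert a; decide

theorem one_one : (1 : ZMod 2) + 1 = 0 := by decide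

theorem bet_comm {a b : G} (h : a * b = b * a) : Γ.bet a b = Γ.bet b a := by
  unfold Geo.bet
  rw [h]; ring

theorem bet_one_left (c : G) : Γ.bet 1 c = 0 := by
  unfold Geo.bet
  rw [one_mul, kap_one, add_zero, add_self]

end Form

section Bas

variable (B : Γ.Basic)
include B

theorem conj_pt {x : G} (g : G) : g * x * g⁻¹ ∈ Γ.Pt ↔ x ∈ Γ.Pt := by
  constructor
  · intro h
    have h1 := B.pt_conj _ h g⁻¹
    have e : g⁻¹ * (g * x * g⁻¹) * g⁻¹⁻¹ = x := by group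
    rwa [e] at h1
  · exact fun h => B.pt_conj x h g

theorem kap_conj (x g : G) : Γ.kap (g * x * g⁻¹) = Γ.kap x := by
  have h : Γ.kap (g * x * g⁻¹) = 0 ↔ Γ.kap x = 0 := by
    rw [kap_eq_zero, kap_eq_zero, conj_pt B]
    have h1 : g * x * g⁻¹ = 1 ↔ x = 1 := by
      constructor
      · intro h
        calc x = g⁻¹ * (g * x * g⁻¹) * g := by group
          _ = 1 := by rw [h]; group
      · rintro rfl; group
    rw [h1]
  rcases two_cases (Γ.kap (g * x * g⁻¹)) with h1 | h1 <;> rcases two_cases (Γ.kap x) with h2 | h2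
  · rw [h1, h2]
  · rw [h.1 h1] at h2; exact absurd h2 (by decide)
  · rw [h.2 h2] at h1; exact absurd h1 (by decide)
  · rw [h1, h2]

theorem bet_conj (x y g : G) : Γ.bet (g * x * g⁻¹) (g * y * g⁻¹) = Γ.bet x y := by
  unfold Geo.bet
  have e : g * x * g⁻¹ * (g * y * g⁻¹) = g * (x * y) * g⁻¹ := by group
  rw [e, kap_conj B, kap_conj B, kap_conj B]

theorem mem_QQ_conj {x : G} (hx : x ∈ Γ.Pt) (g q : G) : g * q * g⁻¹ ∈ Γ.QQ (g * x * g⁻¹) ↔ q ∈ Γ.QQ x := by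
  constructor
  · intro h
    have h1 := B.QQ_conj _ (B.pt_conj x hx g) g⁻¹ _ h
    have e : g⁻¹ * (g * q * g⁻¹) * g⁻¹⁻¹ = q := by group
    have e' : g⁻¹ * (g * x * g⁻¹) * g⁻¹⁻¹ = x := by group
    rwa [e, e'] at h1
  · exact B.QQ_conj x hx g q

/-- elements commuting with `x` normalise `QQ x` -/
theorem QQ_norm {x : G} (hx : x ∈ Γ.Pt) {g : G} (hg : g * x = x * g) {q : G} (hq : q ∈ Γ.QQ x) :
    g * q * g⁻¹ ∈ Γ.QQ x := by
  have h := B.QQ_conj x hx g q hq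
  have e : g * x * g⁻¹ = x := by rw [hg]; group
  rwa [e] at h

/-- conjugation of `KK` -/
theorem KK_conj {O : Subgroup G} {v : G} (hv : v ∈ Γ.Pt) (g : G) {x : G} (hx : x ∈ Γ.KK O v) :
    g * x * g⁻¹ ∈ Γ.KK (cj g O) (g * v * g⁻¹) := by
  have h : Γ.KK O v ≤ (Γ.KK (cj g O) (g * v * g⁻¹)).comap (MulAut.conj g).toMonoidHom := by
    unfold Geo.KK
    apply sup_le
    · intro a ha
      show g * a * g⁻¹ ∈ CC (cj g O) ⊓ Γ.QQ (g * v * g⁻¹) ⊔ cj g O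
      exact Subgroup.mem_sup_left ⟨conj_mem_CC ha.1, B.QQ_conj v hv g a ha.2⟩
    · intro a ha
      show g * a * g⁻¹ ∈ CC (cj g O) ⊓ Γ.QQ (g * v * g⁻¹) ⊔ cj g O
      exact Subgroup.mem_sup_right (conj_mem_cj.2 ha)
  exact h hx

theorem line_mem {v w : G} (hv : v ∈ Γ.Pt) (hw : w ∈ Γ.Pt) (h : w ∈ Γ.QQ v) : v * w = 1 ∨ v * w ∈ Γ.Pt := by
  by_cases hvw : v = w
  · left; rw [hvw]; exact B.pt_sq w hw
  · right; exact B.line v hv w hw hvw h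

theorem sing_mul {v w : G} (hv : v ∈ Γ.Pt) (hw : w ∈ Γ.Pt) (h : w ∈ Γ.QQ v) {q : G} (hq : q ∈ Γ.QQ v)
    (hq' : q ∈ Γ.QQ w) (hne : v * w ≠ 1) : q ∈ Γ.QQ (v * w) := by
  apply B.line_inf v hv w hw _ h q hq hq'
  rintro rfl
  exact hne (B.pt_sq v hv)

end Bas

/-! ### An ark -/

section One

variable (B : Γ.Basic) (A : Γ.ArkFacts) {O : Subgroup G} (hO : O ∈ Γ.Ark)
include A hO

theorem O_le_CC : O ≤ CC O := fun a ha => mem_CC.2 fun b hb => A.comm O hO b hb a ha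

theorem inv_eq {a : G} (ha : a ∈ O) : a⁻¹ = a := inv_eq_of_mul_eq_one_right (A.sq O hO a ha)

theorem bet_symm {a b : G} (ha : a ∈ O) (hb : b ∈ O) : Γ.bet a b = Γ.bet b a := bet_comm (A.comm O hO a ha b hb)

theorem bet_mul_right {a b c : G} (ha : a ∈ O) (hb : b ∈ O) (hc : c ∈ O) :
    Γ.bet a (b * c) = Γ.bet a b + Γ.bet a c := by
  rw [bet_symm A hO ha (O.mul_mem hb hc), A.bet_mul O hO b hb c hc a ha, bet_symm A hO hb ha, bet_symm A hO hc ha]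

theorem not_mem_QQ {v a : G} (hv : v ∈ O) (hv' : v ∈ Γ.Pt) (ha : a ∈ O) : a ∉ Γ.QQ v ↔ Γ.bet a v = 1 := by
  rw [A.bet_iff O hO v hv hv' a ha]
  rcases two_cases (Γ.bet a v) with h | h <;> simp [h]

/-- the product of two elements outside `QQ v` -/
theorem mul_mem_QQ {v a b : G} (hv : v ∈ O) (hv' : v ∈ Γ.Pt) (ha : a ∈ O) (hb : b ∈ O) (h : a ∉ Γ.QQ v) (h' : b ∉ Γ.QQ v) :
    a * b ∈ Γ.QQ v := by
  rw [not_mem_QQ A hO hv hv' ha] at h
  rw [not_mem_QQ A hO hv hv' hb] at h'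
  rw [A.bet_iff O hO v hv hv' _ (O.mul_mem ha hb), A.bet_mul O hO a ha b hb v hv, h, h', one_one]

omit A hO in
theorem mem_KK {v x : G} : x ∈ Γ.KK O v → ∃ r ∈ CC O, r ∈ Γ.QQ v ∧ ∃ w ∈ O, x = r * w := by
  let K : Subgroup G := {
    carrier := {x | ∃ r ∈ CC O, r ∈ Γ.QQ v ∧ ∃ w ∈ O, x = r * w}
    one_mem' := ⟨1, Subgroup.one_mem _, Subgroup.one_mem _, 1, Subgroup.one_mem _, by group⟩
    mul_mem' := by
      rintro _ _ ⟨r, hr, hr', w, hw, rfl⟩ ⟨s, hs, hs', u, hu, rfl⟩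
      refine ⟨r * s, Subgroup.mul_mem _ hr hs, Subgroup.mul_mem _ hr' hs', w * u, Subgroup.mul_mem _ hw hu, ?_⟩
      have h1 := mem_CC.1 hs w hw
      calc r * w * (s * u) = r * (w * s) * u := by group
        _ = r * (s * w) * u := by rw [h1]
        _ = _ := by group
    inv_mem' := by
      rintro _ ⟨r, hr, hr', w, hw, rfl⟩
      refine ⟨r⁻¹, Subgroup.inv_mem _ hr, Subgroup.inv_mem _ hr', w⁻¹, Subgroup.inv_mem _ hw, ?_⟩
      have h1 := mem_CC.1 (Subgroup.inv_mem _ hr) _ (Subgroup.inv_mem _ hw)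
      rw [mul_inv_rev, h1] }
  have h : Γ.KK O v ≤ K := by
    unfold Geo.KK
    apply sup_le
    · intro a ha
      exact ⟨a, ha.1, ha.2, 1, Subgroup.one_mem _, (mul_one a).symm⟩
    · intro a ha
      exact ⟨1, Subgroup.one_mem _, Subgroup.one_mem _, a, ha, (one_mul a).symm⟩
  exact fun hx => h hx

omit A hO in
theorem KK_of {v r w : G} (hr : r ∈ CC O) (hr' : r ∈ Γ.QQ v) (hw : w ∈ O) : r * w ∈ Γ.KK O v :=
  Subgroup.mul_mem_sup ⟨hr, hr'⟩ hw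

omit A hO in
theorem KK_of' {v r : G} (hr : r ∈ CC O) (hr' : r ∈ Γ.QQ v) : r ∈ Γ.KK O v := Subgroup.mem_sup_left ⟨hr, hr'⟩

omit A hO in
theorem O_le_KK {v : G} : O ≤ Γ.KK O v := le_sup_right

theorem KK_le_CC {v : G} : Γ.KK O v ≤ CC O := sup_le inf_le_left (O_le_CC A hO)

theorem CC_comm {x a : G} (hx : x ∈ CC O) (ha : a ∈ O) : x * a = a * x := (mem_CC.1 hx a ha).symm

/-- the decomposition of an involution of `KK O v` -/
theorem KK_inv {v x : G} (hx : x ∈ Γ.KK O v) (h2 : x * x = 1) :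
    ∃ r ∈ CC O, r ∈ Γ.QQ v ∧ r * r = 1 ∧ ∃ w ∈ O, x = r * w := by
  obtain ⟨r, hr, hr', w, hw, rfl⟩ := mem_KK hx
  refine ⟨r, hr, hr', ?_, w, hw, rfl⟩
  have h1 := CC_comm A hO hr hw
  calc r * r = r * r * (w * w) := by rw [A.sq O hO w hw, mul_one]
    _ = r * (r * w) * w := by group
    _ = r * (w * r) * w := by rw [h1]
    _ = (r * w) * (r * w) := by group
    _ = 1 := h2

/-- a vector separating two vectors -/
theorem exists_sep {v w : G} (hv : v ∈ O) (hw : w ∈ O) (hv1 : v ≠ 1) (hvw : v ≠ w) :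
    ∃ t ∈ O, Γ.bet t w = 0 ∧ Γ.bet t v = 1 := by
  obtain ⟨b, hb, hbv⟩ := A.bet_nondeg O hO v hv hv1
  have hvw1 : v * w ≠ 1 := by
    intro h
    apply hvw
    rw [← inv_eq A hO hw]
    exact eq_inv_of_mul_eq_one_left h
  obtain ⟨c, hc, hcv⟩ := A.bet_nondeg O hO (v * w) (O.mul_mem hv hw) hvw1
  rw [bet_mul_right A hO hc hv hw] at hcv
  rcases two_cases (Γ.bet b w) with h1 | h1
  · exact ⟨b, hb, h1, hbv⟩
  · rcases two_cases (Γ.bet c w) with h2 | h2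
    · rw [h2, add_zero] at hcv
      exact ⟨c, hc, h2, hcv⟩
    · have h3 : Γ.bet c v = 0 := by
        rw [h2] at hcv
        generalize Γ.bet c v = a at hcv
        revert a; decide
      refine ⟨b * c, O.mul_mem hb hc, ?_, ?_⟩
      · rw [A.bet_mul O hO b hb c hc w hw, h1, h2, one_one]
      · rw [A.bet_mul O hO b hb c hc v hv, hbv, h3, add_zero]

/-- `O = (O ∩ QQ v) (O ∩ QQ w)` -/
theorem exists_split {v w u : G} (hv : v ∈ O) (hw : w ∈ O) (hv' : v ∈ Γ.Pt) (hw' : w ∈ Γ.Pt) (hv1 : v ≠ 1)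
    (hvw : v ≠ w) (hu : u ∈ O) :
    ∃ u₁ ∈ O, u₁ ∈ Γ.QQ v ∧ ∃ u₂ ∈ O, u₂ ∈ Γ.QQ w ∧ u = u₁ * u₂ := by
  by_cases h : u ∈ Γ.QQ v
  · exact ⟨u, hu, h, 1, O.one_mem, Subgroup.one_mem _, (mul_one u).symm⟩
  · obtain ⟨t, ht, htw, htv⟩ := exists_sep A hO hv hw hv1 hvw
    refine ⟨u * t, O.mul_mem hu ht, ?_, t, ht, ?_, ?_⟩
    · exact mul_mem_QQ A hO hv hv' hu ht h ((not_mem_QQ A hO hv hv' ht).2 htv)
    · exact (A.bet_iff O hO w hw hw' t ht).2 htw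
    · rw [mul_assoc, A.sq O hO t ht, mul_one]

include B in
/-- the strong form of (a6) -/
theorem KK_inf {v w x : G} (hv : v ∈ O) (hw : w ∈ O) (hv' : v ∈ Γ.Pt) (hw' : w ∈ Γ.Pt) (hvw : v ≠ w)
    (hx : x ∈ Γ.KK O v) (hx' : x ∈ Γ.KK O w) :
    ∃ r ∈ CC O, r ∈ Γ.QQ v ∧ r ∈ Γ.QQ w ∧ ∃ t ∈ O, x = r * t := by
  obtain ⟨r₁, hr₁, hr₁', w₁, hw₁, rfl⟩ := mem_KK hx
  obtain ⟨r₂, hr₂, hr₂', w₂, hw₂, h⟩ := mem_KK hx'
  obtain ⟨u₁, hu₁, hu₁', u₂, hu₂, hu₂', hu⟩ := exists_split A hO hv hw hv' hw' (B.pt_ne v hv') hvw (O.mul_mem hw₂ hw₁)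
  have h1 : r₁ * u₁⁻¹ = r₂ * u₂ := by
    have e1 : r₁ = r₂ * (w₂ * w₁) := by
      calc r₁ = r₁ * (w₁ * w₁) := by rw [A.sq O hO w₁ hw₁, mul_one]
        _ = (r₁ * w₁) * w₁ := by group
        _ = (r₂ * w₂) * w₁ := by rw [h]
        _ = _ := by group
    rw [e1, hu, A.comm O hO u₁ hu₁ u₂ hu₂]
    group
  refine ⟨r₁ * u₁⁻¹, Subgroup.mul_mem _ hr₁ (O_le_CC A hO (O.inv_mem hu₁)),
    Subgroup.mul_mem _ hr₁' (Subgroup.inv_mem _ hu₁'), ?_, u₁ * w₁, O.mul_mem hu₁ hw₁, by group⟩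
  rw [h1]
  exact Subgroup.mul_mem _ hr₂' hu₂'

include B in
/-- (a5) -/
theorem KK_opp {v w x : G} (hv : v ∈ O) (hw : w ∈ O) (hv' : v ∈ Γ.Pt) (hw' : w ∈ Γ.Pt) (hvw : w ∉ Γ.QQ v)
    (hx : x ∈ Γ.KK O v) (hx' : x ∈ Γ.KK O w) : x ∈ O := by
  have hne : v ≠ w := by
    rintro rfl
    exact hvw (B.QQ_self v hv')
  obtain ⟨r, hr, h1, h2, t, ht, rfl⟩ := KK_inf B A hO hv hw hv' hw' hne hx hx'
  exact O.mul_mem (A.opp_inf O hO v hv hv' w hw hw' hvw r hr h1 h2) ht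

include B in
theorem coll_of_KK {v w x : G} (hv : v ∈ O) (hw : w ∈ O) (hv' : v ∈ Γ.Pt) (hw' : w ∈ Γ.Pt)
    (hx : x ∈ Γ.KK O v) (hx' : x ∈ Γ.KK O w) (hxO : x ∉ O) : w ∈ Γ.QQ v := by
  by_contra h
  exact hxO (KK_opp B A hO hv hw hv' hw' h hx hx')

include B in
/-- (a6) -/
theorem KK_mul {v w x : G} (hv : v ∈ O) (hw : w ∈ O) (hv' : v ∈ Γ.Pt) (hw' : w ∈ Γ.Pt) (hvw : v ≠ w)
    (hc : w ∈ Γ.QQ v) (hx : x ∈ Γ.KK O v) (hx' : x ∈ Γ.KK O w) : x ∈ Γ.KK O (v * w) := by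
  obtain ⟨r, hr, h1, h2, t, ht, rfl⟩ := KK_inf B A hO hv hw hv' hw' hvw hx hx'
  exact KK_of hr (B.line_inf v hv' w hw' hvw hc r h1 h2) ht

/-- two elements of `KK O v ∖ QQ v` -/
theorem KK_two {v a b : G} (hv : v ∈ O) (hv' : v ∈ Γ.Pt) (ha : a ∈ Γ.KK O v) (hb : b ∈ Γ.KK O v) (ha' : a ∉ Γ.QQ v)
    (hb' : b ∉ Γ.QQ v) : a⁻¹ * b ∈ Γ.QQ v := by
  obtain ⟨r, hr, hr', w, hw, rfl⟩ := mem_KK ha
  obtain ⟨s, hs, hs', u, hu, rfl⟩ := mem_KK hb
  have h1 : w ∉ Γ.QQ v := fun h => ha' (Subgroup.mul_mem _ hr' h)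
  have h2 : u ∉ Γ.QQ v := fun h => hb' (Subgroup.mul_mem _ hs' h)
  have h3 := mul_mem_QQ A hO hv hv' hw hu h1 h2
  have h4 := CC_comm A hO (Subgroup.mul_mem _ (Subgroup.inv_mem _ hr) hs) hw
  have e : (r * w)⁻¹ * (s * u) = (r⁻¹ * s) * (w * u) := by
    calc (r * w)⁻¹ * (s * u) = w⁻¹ * (r⁻¹ * s) * u := by group
      _ = w * (r⁻¹ * s) * u := by rw [inv_eq A hO hw]
      _ = (r⁻¹ * s) * w * u := by rw [← h4]
      _ = _ := by group
  rw [e]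
  exact Subgroup.mul_mem _ (Subgroup.mul_mem _ (Subgroup.inv_mem _ hr') hs') h3

include B in
/-- the subgroup `Vs O s` for `s ∉ O` -/
theorem exists_V {s : G} (hs : s ∉ O) : ∃ V : Subgroup G, (∀ v, v ∈ V ↔ v ∈ Γ.Vs O s) ∧ V ≤ O ∧
    (∀ v ∈ V, v ≠ 1 → v ∈ Γ.Pt ∧ s ∈ Γ.KK O v) ∧ (∀ v ∈ O, v ∈ Γ.Pt → s ∈ Γ.KK O v → v ∈ V) ∧
    (∀ v ∈ V, v ≠ 1 → ∀ w ∈ V, w ∈ Γ.QQ v) := by
  have hcol : ∀ v w, v ∈ O → v ∈ Γ.Pt → s ∈ Γ.KK O v → w ∈ O → w ∈ Γ.Pt → s ∈ Γ.KK O w → w ∈ Γ.QQ v :=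
    fun v w hv hv' hsv hw hw' hsw => coll_of_KK B A hO hv hw hv' hw' hsv hsw hs
  let V : Subgroup G := {
    carrier := Γ.Vs O s
    one_mem' := Or.inl rfl
    mul_mem' := by
      rintro v w (rfl | ⟨hv, hv', hsv⟩) (rfl | ⟨hw, hw', hsw⟩)
      · left; rw [one_mul]
      · right; rw [one_mul]; exact ⟨hw, hw', hsw⟩
      · right; rw [mul_one]; exact ⟨hv, hv', hsv⟩
      · by_cases hvw : v = w
        · left; rw [hvw]; exact B.pt_sq w hw'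
        · right
          have hc := hcol v w hv hv' hsv hw hw' hsw
          exact ⟨O.mul_mem hv hw, B.line v hv' w hw' hvw hc, KK_mul B A hO hv hw hv' hw' hvw hc hsv hsw⟩
    inv_mem' := by
      rintro v (rfl | ⟨hv, hv', hsv⟩)
      · left; exact inv_one
      · right; rw [inv_eq A hO hv]; exact ⟨hv, hv', hsv⟩ }
  refine ⟨V, fun v => Iff.rfl, ?_, ?_, ?_, ?_⟩
  · rintro v (rfl | ⟨hv, -⟩)
    · exact O.one_mem
    · exact hv
  · rintro v (rfl | ⟨-, hv, h⟩) hne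
    · exact absurd rfl hne
    · exact ⟨hv, h⟩
  · exact fun v h1 h2 h3 => Or.inr ⟨h1, h2, h3⟩
  · rintro v (rfl | ⟨hv, hv', hsv⟩) hne w (rfl | ⟨hw, hw', hsw⟩)
    · exact absurd rfl hne
    · exact absurd rfl hne
    · exact Subgroup.one_mem _
    · exact hcol v w hv hv' hsv hw hw' hsw

omit A hO in
theorem ncard_eq (V : Subgroup G) {S : Set G} (h : ∀ v, v ∈ V ↔ v ∈ S) : Nat.card V = S.ncard := by
  have : (V : Set G) = S := Set.ext h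
  rw [← this]; rfl

/-- `Vs` depends only on the coset -/
theorem Vs_mul {s w : G} (hw : w ∈ O) : Γ.Vs O (s * w) = Γ.Vs O s := by
  ext v
  unfold Geo.Vs
  simp only [Set.mem_ofPred_eq]
  have h : s * w ∈ Γ.KK O v ↔ s ∈ Γ.KK O v := Subgroup.mul_mem_cancel_right _ (O_le_KK hw)
  rw [h]

include B in
theorem V_card' {z s : G} (hz : z ∈ O) (hz' : z ∈ Γ.Pt) (hs : s ∈ Γ.KK O z) (h2 : s * s = 1) (hsO : s ∉ O) :
    (Γ.Vs O s).ncard = 32 := by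
  obtain ⟨r, hr, hr', hr2, w, hw, rfl⟩ := KK_inv A hO hs h2
  rw [Vs_mul A hO hw]
  exact A.V_card O hO z hz hz' r hr hr' hr2 fun h => hsO (O.mul_mem h hw)

include B in
theorem V_inter' {z s s' : G} (hz : z ∈ O) (hz' : z ∈ Γ.Pt) (hs : s ∈ Γ.KK O z) (h2 : s * s = 1) (hsO : s ∉ O)
    (hs' : s' ∈ Γ.KK O z) (h2' : s' * s' = 1) (hsO' : s' ∉ O) (hc : s * s' = s' * s) (hss : s * s' ∉ O) :
    8 ≤ (Γ.Vs O s ∩ Γ.Vs O s').ncard := by
  obtain ⟨r, hr, hr', hr2, w, hw, rfl⟩ := KK_inv A hO hs h2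
  obtain ⟨r', hrr, hrr', hrr2, w', hw', rfl⟩ := KK_inv A hO hs' h2'
  rw [Vs_mul A hO hw, Vs_mul A hO hw']
  have k1 := CC_comm A hO hr hw
  have k2 := CC_comm A hO hr hw'
  have k3 := CC_comm A hO hrr hw
  have k4 := CC_comm A hO hrr hw'
  have k5 := A.comm O hO w hw w' hw'
  have e1 : r * w * (r' * w') = (r * r') * (w * w') := by
    calc r * w * (r' * w') = r * (w * r') * w' := by group
      _ = r * (r' * w) * w' := by rw [k3]
      _ = _ := by group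
  have e2 : r' * w' * (r * w) = (r' * r) * (w * w') := by
    calc r' * w' * (r * w) = r' * (w' * r) * w := by group
      _ = r' * (r * w') * w := by rw [k2]
      _ = (r' * r) * (w' * w) := by group
      _ = _ := by rw [k5]
  have hc' : r * r' = r' * r := by
    rw [e1, e2] at hc
    exact mul_right_cancel hc
  apply A.V_inter O hO z hz hz' r hr hr' hr2 (fun h => hsO (O.mul_mem h hw)) r' hrr hrr' hrr2
    (fun h => hsO' (O.mul_mem h hw')) hc'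
  intro h
  apply hss
  rw [e1]
  exact O.mul_mem h (O.mul_mem hw hw')

include B in
/-- elements commuting with `z` and `y` normalise the ark of `z` and `y` -/
theorem norm_of {z y g : G} (hz : z ∈ O) (hz' : z ∈ Γ.Pt) (hy : y ∈ Γ.KK O z) (hy' : y ∉ Γ.QQ z) (hgz : g * z = z * g)
    (hgy : g * y = y * g) : cj g O = O := by
  have ez : g * z * g⁻¹ = z := by rw [hgz]; group
  have ey : g * y * g⁻¹ = y := by rw [hgy]; group
  have h1 := KK_conj B hz' g hy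
  rw [ez, ey] at h1
  refine (A.unique O hO _ (A.conj O hO g) z hz' hz ?_ y hy h1 hy').symm
  have h2 := (conj_mem_cj (g := g)).2 hz
  rwa [ez] at h2

/-- the form on `O` is invariant -/
theorem norm_mem {g : G} (h : cj g O = O) {a : G} (ha : a ∈ O) : g * a * g⁻¹ ∈ O := by
  have h1 := (conj_mem_cj (g := g)).2 ha
  rwa [h] at h1

include B in
theorem norm_KK {g v x : G} (h : cj g O = O) (hv : v ∈ Γ.Pt) (hx : x ∈ Γ.KK O v) (hgx : g * x = x * g) :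
    x ∈ Γ.KK O (g * v * g⁻¹) := by
  have h1 := KK_conj B hv g hx
  have e : g * x * g⁻¹ = x := by rw [hgx]; group
  rwa [h, e] at h1

include B in
theorem norm_Vs {g s v : G} (h : cj g O = O) (hgs : g * s = s * g) (hv : v ∈ Γ.Vs O s) : g * v * g⁻¹ ∈ Γ.Vs O s := by
  rcases hv with rfl | ⟨h1, h2, h3⟩
  · left; group
  · exact Or.inr ⟨norm_mem A hO h h1, B.pt_conj v h2 g, norm_KK B A hO h h2 h3 hgs⟩

include B in
/-- `{q : q = 1 ∨ s ∈ QQ q}` in a subgroup on which `s ∈ KK O q` -/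
theorem exists_R {s : G} {X : Subgroup G} (hX : X ≤ O) (hp : ∀ q ∈ X, q ≠ 1 → q ∈ Γ.Pt)
    (hc : ∀ q ∈ X, q ≠ 1 → ∀ q' ∈ X, q' ∈ Γ.QQ q) (hK : ∀ q ∈ X, q ≠ 1 → s ∈ Γ.KK O q) :
    ∃ R : Subgroup G, (∀ q, q ∈ R ↔ q ∈ X ∧ (q = 1 ∨ s ∈ Γ.QQ q)) ∧ R ≤ X ∧
      ∀ a ∈ X, ∀ b ∈ X, a ∉ R → b ∉ R → a⁻¹ * b ∈ R := by
  let R : Subgroup G := {
    carrier := {q | q ∈ X ∧ (q = 1 ∨ s ∈ Γ.QQ q)}
    one_mem' := ⟨X.one_mem, Or.inl rfl⟩
    mul_mem' := by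
      rintro v w ⟨hv, hv'⟩ ⟨hw, hw'⟩
      refine ⟨X.mul_mem hv hw, ?_⟩
      rcases hv' with rfl | hv'
      · rw [one_mul]; exact hw'
      · rcases hw' with rfl | hw'
        · rw [mul_one]; exact Or.inr hv'
        · by_cases h1 : v * w = 1
          · exact Or.inl h1
          · right
            by_cases hv1 : v = 1
            · subst hv1; rw [one_mul]; exact hw'
            by_cases hw1 : w = 1
            · subst hw1; rw [mul_one]; exact hv'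
            exact sing_mul B (hp v hv hv1) (hp w hw hw1) (hc v hv hv1 w hw) hv' hw' h1
    inv_mem' := by
      rintro v ⟨hv, hv'⟩
      refine ⟨X.inv_mem hv, ?_⟩
      rw [inv_eq A hO (hX hv)]
      exact hv' }
  refine ⟨R, fun q => Iff.rfl, fun q hq => hq.1, ?_⟩
  intro a ha b hb haR hbR
  refine ⟨X.mul_mem (X.inv_mem ha) hb, ?_⟩
  rw [inv_eq A hO (hX ha)]
  by_cases hab : a = b
  · left; rw [hab]; exact A.sq O hO b (hX hb)
  have ha1 : a ≠ 1 := fun h => haR ⟨ha, Or.inl h⟩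
  have hb1 : b ≠ 1 := fun h => hbR ⟨hb, Or.inl h⟩
  have hsa : s ∉ Γ.QQ a := fun h => haR ⟨ha, Or.inr h⟩
  have hsb : s ∉ Γ.QQ b := fun h => hbR ⟨hb, Or.inr h⟩
  right
  obtain ⟨r, hr, h1, h2, t, ht, rfl⟩ := KK_inf B A hO (hX ha) (hX hb) (hp a ha ha1) (hp b hb hb1) hab
    (hK a ha ha1) (hK b hb hb1)
  have hta : t ∉ Γ.QQ a := fun h => hsa (Subgroup.mul_mem _ h1 h)
  have htb : t ∉ Γ.QQ b := fun h => hsb (Subgroup.mul_mem _ h2 h)
  have hpab : a * b ∈ Γ.Pt := B.line a (hp a ha ha1) b (hp b hb hb1) hab (hc a ha ha1 b hb)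
  apply Subgroup.mul_mem _ (B.line_inf a (hp a ha ha1) b (hp b hb hb1) hab (hc a ha ha1 b hb) r h1 h2)
  rw [not_mem_QQ A hO (hX ha) (hp a ha ha1) ht] at hta
  rw [not_mem_QQ A hO (hX hb) (hp b hb hb1) ht] at htb
  rw [A.bet_iff O hO (a * b) (O.mul_mem (hX ha) (hX hb)) hpab t ht, bet_mul_right A hO ht (hX ha) (hX hb), hta, htb,
    one_one]

end One

end Cfsg.Agent.R2.M7.Ark
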