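import Mathlib

/-!
# S5539: the maximal 2-local subgroups of the Monster (helper18, helper10, helper20)

The 2-local geometry, abstract form.  `Pt`: the involutions of class 2B ("points"); `QQ x = O₂(C(x))`; `Ark`: the conjugates
of the elementary abelian subgroup of order `2 ^ 10`.  `kap`: the characteristic function of the elements which are neither
1 nor a point; `bet`: its polar form; `KK O v = (C(O) ∩ Q_v) O`; `Vs O s`: the points `v` of the ark `O` with `s ∈ KK O v`.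

`Facts`: what the main argument (`MainC`) uses.
-/

set_option autoImplicit false

namespace Cfsg.Agent.R2.M7

/-- the geometry -/
structure Geo (G : Type*) [Group G] where
  /-- the involutions of class 2B -/
  Pt : Set G
  /-- `O₂` of the centraliser -/
  QQ : G → Subgroup G
  /-- the arks -/
  Ark : Set (Subgroup G)

namespace Geo

variable {G : Type*} [Group G] (Γ : Geo G)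

/-- the centraliser of a subgroup -/
abbrev CC (O : Subgroup G) : Subgroup G := Subgroup.centralizer (O : Set G)

/-- the characteristic function of the elements which are neither 1 nor a point -/
noncomputable def kap (x : G) : ZMod 2 := open Classical in if x = 1 ∨ x ∈ Γ.Pt then 0 else 1

/-- the polar form of `kap` -/
noncomputable def bet (a b : G) : ZMod 2 := Γ.kap (a * b) + Γ.kap a + Γ.kap b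

/-- `(C(O) ∩ Q_v) O` (a subgroup if `O` is abelian) -/
def KK (O : Subgroup G) (v : G) : Subgroup G := (CC O ⊓ Γ.QQ v) ⊔ O

/-- the points `v` of `O` with `s ∈ KK O v`, and 1 -/
def Vs (O : Subgroup G) (s : G) : Set G := {v | v = 1 ∨ (v ∈ O ∧ v ∈ Γ.Pt ∧ s ∈ Γ.KK O v)}

/-- the conjugate of a subgroup -/
abbrev cj (g : G) (O : Subgroup G) : Subgroup G := O.map (MulAut.conj g).toMonoidHom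

/-- singular subgroups -/
def Sing (F : Subgroup G) : Prop := (∀ x ∈ F, x ≠ 1 → x ∈ Γ.Pt) ∧ ∀ x ∈ F, x ≠ 1 → ∀ y ∈ F, y ∈ Γ.QQ x

/-- the basic facts -/
structure Basic : Prop where
  pt_sq : ∀ x ∈ Γ.Pt, x * x = 1
  pt_ne : ∀ x ∈ Γ.Pt, x ≠ 1
  pt_conj : ∀ x ∈ Γ.Pt, ∀ g : G, g * x * g⁻¹ ∈ Γ.Pt
  pt_trans : ∀ x ∈ Γ.Pt, ∀ y ∈ Γ.Pt, ∃ g : G, g * x * g⁻¹ = y
  QQ_conj : ∀ x ∈ Γ.Pt, ∀ g q : G, q ∈ Γ.QQ x → g * q * g⁻¹ ∈ Γ.QQ (g * x * g⁻¹)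
  QQ_comm : ∀ x ∈ Γ.Pt, ∀ q ∈ Γ.QQ x, q * x = x * q
  QQ_self : ∀ x ∈ Γ.Pt, x ∈ Γ.QQ x
  /-- `Q' = ⟨x⟩` -/
  QQ_der : ∀ x ∈ Γ.Pt, ∀ a ∈ Γ.QQ x, ∀ b ∈ Γ.QQ x, a * b * a⁻¹ * b⁻¹ = 1 ∨ a * b * a⁻¹ * b⁻¹ = x
  QQ_two : ∀ x ∈ Γ.Pt, IsPGroup 2 (Γ.QQ x)
  /-- `C(Q) ≤ Q` -/
  QQ_cent : ∀ x ∈ Γ.Pt, ∀ g : G, (∀ q ∈ Γ.QQ x, g * q = q * g) → g ∈ Γ.QQ x
  symm : ∀ x ∈ Γ.Pt, ∀ y ∈ Γ.Pt, y ∈ Γ.QQ x → x ∈ Γ.QQ y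
  line : ∀ x ∈ Γ.Pt, ∀ y ∈ Γ.Pt, x ≠ y → y ∈ Γ.QQ x → x * y ∈ Γ.Pt
  line_inf : ∀ x ∈ Γ.Pt, ∀ y ∈ Γ.Pt, x ≠ y → y ∈ Γ.QQ x → ∀ q ∈ Γ.QQ x, q ∈ Γ.QQ y → q ∈ Γ.QQ (x * y)

/-- the facts on one ark -/
structure ArkFacts : Prop where
  conj : ∀ O ∈ Γ.Ark, ∀ g : G, cj g O ∈ Γ.Ark
  comm : ∀ O ∈ Γ.Ark, ∀ a ∈ O, ∀ b ∈ O, a * b = b * a
  sq : ∀ O ∈ Γ.Ark, ∀ a ∈ O, a * a = 1
  card : ∀ O ∈ Γ.Ark, Nat.card O = 2 ^ 10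
  /-- the form is bilinear -/
  bet_mul : ∀ O ∈ Γ.Ark, ∀ a ∈ O, ∀ b ∈ O, ∀ c ∈ O, Γ.bet (a * b) c = Γ.bet a c + Γ.bet b c
  /-- the orthogonal space of a point is `O ∩ Q_v` -/
  bet_iff : ∀ O ∈ Γ.Ark, ∀ v ∈ O, v ∈ Γ.Pt → ∀ a ∈ O, (a ∈ Γ.QQ v ↔ Γ.bet a v = 0)
  bet_nondeg : ∀ O ∈ Γ.Ark, ∀ a ∈ O, a ≠ 1 → ∃ b ∈ O, Γ.bet b a = 1
  /-- totally singular subgroups -/
  ts_card : ∀ O ∈ Γ.Ark, ∀ S ≤ O, (∀ x ∈ S, x ≠ 1 → x ∈ Γ.Pt) → Nat.card S ≤ 32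
  /-- a 2-group normalising `O` and not centralising it -/
  omega : ∀ O ∈ Γ.Ark, ∀ T : Subgroup G, IsPGroup 2 T → (∀ t ∈ T, ∀ a ∈ O, t * a * t⁻¹ ∈ O) →
    (∃ t ∈ T, ∃ a ∈ O, t * a ≠ a * t) →
    ∃ v ∈ O, v ∈ Γ.Pt ∧ (∀ t ∈ T, t * v = v * t) ∧ ∀ a ∈ O, (∀ t ∈ T, t * a = a * t) → a ∈ Γ.QQ v
  /-- two points of `O` which are not collinear: the intersection -/
  opp_inf : ∀ O ∈ Γ.Ark, ∀ v ∈ O, v ∈ Γ.Pt → ∀ w ∈ O, w ∈ Γ.Pt → w ∉ Γ.QQ v →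
    ∀ x ∈ CC O, x ∈ Γ.QQ v → x ∈ Γ.QQ w → x ∈ O
  /-- two points of `O` which are not collinear: the product -/
  opp_sup : ∀ O ∈ Γ.Ark, ∀ v ∈ O, v ∈ Γ.Pt → ∀ w ∈ O, w ∈ Γ.Pt → w ∉ Γ.QQ v →
    ∀ x ∈ CC O, ∃ r ∈ CC O, r ∈ Γ.QQ v ∧ ∃ s ∈ CC O, s ∈ Γ.QQ w ∧ x = r * s
  /-- (L*) -/
  lstar : ∀ O ∈ Γ.Ark, ∀ z ∈ O, z ∈ Γ.Pt → ∀ v ∈ O, v ∈ Γ.Pt → v ∈ Γ.QQ z → v ≠ z →
    ∀ q ∈ CC O, q ∈ Γ.QQ z → ∀ r ∈ CC O, r ∈ Γ.QQ v → q * r = r * q →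
    q ∈ Γ.KK O v ∨ r ∈ Γ.KK O z ∨ q * r ∈ Γ.KK O (z * v)
  /-- (K3) -/
  V_card : ∀ O ∈ Γ.Ark, ∀ z ∈ O, z ∈ Γ.Pt → ∀ s ∈ CC O, s ∈ Γ.QQ z → s * s = 1 → s ∉ O →
    (Γ.Vs O s).ncard = 32
  /-- (K4) -/
  V_inter : ∀ O ∈ Γ.Ark, ∀ z ∈ O, z ∈ Γ.Pt → ∀ s ∈ CC O, s ∈ Γ.QQ z → s * s = 1 → s ∉ O →
    ∀ s' ∈ CC O, s' ∈ Γ.QQ z → s' * s' = 1 → s' ∉ O → s * s' = s' * s → s * s' ∉ O →
    8 ≤ (Γ.Vs O s ∩ Γ.Vs O s').ncard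
  /-- the centraliser in `Q_v` of an element acting as `O` on `Q_v / v` -/
  cent_le : ∀ O ∈ Γ.Ark, ∀ v ∈ O, v ∈ Γ.Pt → ∀ t ∈ Γ.KK O v, t ∉ Γ.QQ v → ∀ x ∈ Γ.QQ v, x * t = t * x → x ∈ CC O
  /-- such an element determines the ark -/
  unique : ∀ O ∈ Γ.Ark, ∀ O' ∈ Γ.Ark, ∀ z ∈ Γ.Pt, z ∈ O → z ∈ O' → ∀ y ∈ Γ.KK O z, y ∈ Γ.KK O' z → y ∉ Γ.QQ z → O = O'
  /-- the points `v` of `Q_z` with `y ∈ Q_v` -/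
  pt_mem : ∀ O ∈ Γ.Ark, ∀ z ∈ O, z ∈ Γ.Pt → ∀ y ∈ Γ.KK O z, y ∉ Γ.QQ z → ∀ v ∈ Γ.Pt, v ∈ Γ.QQ z → y ∈ Γ.QQ v → v ∈ O

/-- type D of an involution `y ∈ C(z) ∖ Q_z` (dodecads) -/
def TypeD (z y : G) : Prop :=
  ∃ c ∈ Γ.Pt, c ∈ Γ.QQ z ∧ y ∈ Γ.QQ c ∧ (∀ g : G, g * z = z * g → g * y = y * g → g * c = c * g) ∧
    ∀ s ∈ Γ.QQ z, s * s = 1 → s * y = y * s → s ∈ Γ.QQ c

/-- type O of an involution `y ∈ C(z) ∖ Q_z` (octads) -/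
def TypeO (z y : G) : Prop := ∃ O ∈ Γ.Ark, z ∈ O ∧ y ∈ Γ.KK O z

/-- the types of the involutions of `C(z) ∖ Q_z` -/
def TypeFact : Prop := ∀ z ∈ Γ.Pt, ∀ y : G, y * z = z * y → y ∉ Γ.QQ z → y * y = 1 → Γ.TypeD z y ∨ Γ.TypeO z y

/-- the hypothesis on two arks: they contain a common singular subgroup of order 16 -/
def Adj (O₁ O₂ X : Subgroup G) : Prop :=
  O₁ ∈ Γ.Ark ∧ O₂ ∈ Γ.Ark ∧ O₁ ≠ O₂ ∧ X ≤ O₁ ∧ X ≤ O₂ ∧ Nat.card X = 16 ∧ ∀ x ∈ X, x ≠ 1 → x ∈ Γ.Pt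

/-- the facts on two arks -/
structure TwoArk : Prop where
  /-- (J1) -/
  comm : ∀ O₁ O₂ X : Subgroup G, Γ.Adj O₁ O₂ X → ∀ a ∈ O₁, ∀ b ∈ O₂, a * b = b * a
  /-- (J2) -/
  cent : ∀ O₁ O₂ X : Subgroup G, Γ.Adj O₁ O₂ X → ∀ q ∈ X, q ≠ 1 → ∀ s ∈ CC O₁, s ∈ CC O₂ →
    ∃ r ∈ Γ.QQ q, ∃ a ∈ O₁, ∃ b ∈ O₂, s = r * a * b

/-- the facts used by the main argument -/
structure Facts : Prop where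
  basic : Γ.Basic
  ark : Γ.ArkFacts
  type : Γ.TypeFact
  two : Γ.TwoArk
  /-- the squares in `Q_x` -/
  qsq : ∀ x ∈ Γ.Pt, ∀ a ∈ Γ.QQ x, a * a = 1 ∨ a * a = x

/-- the situation of the main argument: `T = O₂(H)`, `Z = Ω₁(Z(T))` -/
structure Sit (T Z : Subgroup G) : Prop where
  two : IsPGroup 2 T
  comm : ∀ x ∈ Z, ∀ t ∈ T, t * x = x * t
  ab : ∀ x ∈ Z, ∀ y ∈ Z, x * y = y * x
  sq : ∀ x ∈ Z, x * x = 1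
  all : ∀ x : G, x * x = 1 → (∀ t ∈ T, t * x = x * t) → x ∈ Z
  pt : ∃ x ∈ Z, x ∈ Γ.Pt

/-- the conclusion of the main argument -/
def MainC : Prop := ∀ T Z : Subgroup G, Γ.Sit T Z → Z ∈ Γ.Ark ∨
  ∃ F : Subgroup G, F ≠ ⊥ ∧ F ≤ Z ∧ Γ.Sing F ∧ ∀ g : G, (∀ x ∈ Z, g * x * g⁻¹ ∈ Z) → ∀ x ∈ F, g * x * g⁻¹ ∈ F

/-- the conclusion for the singular subgroups: five 2-subgroups `L i` -/
def MainB : Prop := ∃ L : Fin 5 → Subgroup G, (∀ i, L i ≠ ⊥ ∧ IsPGroup 2 (L i)) ∧ (∀ O ∈ Γ.Ark, ∃ g : G, O = cj g (L 4)) ∧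
  ∀ F : Subgroup G, F ≠ ⊥ → Γ.Sing F → ∃ i : Fin 5, ∃ g : G, ∀ x : G, (∀ a ∈ F, x * a * x⁻¹ ∈ F) →
    ∀ a ∈ cj g (L i), x * a * x⁻¹ ∈ cj g (L i)

end Geo

end Cfsg.Agent.R2.M7
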