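import Cfsg.Agent.R2.M7.T1

/-!
# The main claim (helper18, S5539)
-/

set_option autoImplicit false
set_option linter.unusedSectionVars false

namespace Cfsg.Agent.R2.M7.MainCP

open Geo Elem Ark T0 T1

variable {G : Type*} [Group G] [Finite G] {Γ : Geo G}

theorem exists_max {T Z : Subgroup G} (S : Γ.Sit T Z) : ∃ z, Max Γ Z z := by
  obtain ⟨x, hx, hx'⟩ := S.pt
  obtain ⟨z, hz, hz'⟩ := Set.exists_max_image {x | x ∈ Z ∧ x ∈ Γ.Pt} (fun x => Nat.card (Z ⊓ Γ.QQ x : Subgroup G))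
    (Set.toFinite _) ⟨x, hx, hx'⟩
  exact ⟨z, hz.1, hz.2, fun x hx hx' => hz' x ⟨hx, hx'⟩⟩

/-- conjugation preserves the maximal points -/
theorem conj_max (B : Γ.Basic) {Z : Subgroup G} {z g : G} (hz : Max Γ Z z) (hg : ∀ x ∈ Z, g * x * g⁻¹ ∈ Z) :
    Max Γ Z (g * z * g⁻¹) := by
  refine ⟨hg z hz.mem, B.pt_conj z hz.pt g, ?_⟩
  have h1 : Nat.card (Z ⊓ Γ.QQ z : Subgroup G) ≤ Nat.card (Z ⊓ Γ.QQ (g * z * g⁻¹) : Subgroup G) := by
    apply Nat.card_le_card_of_injective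
      (fun x : (Z ⊓ Γ.QQ z : Subgroup G) => (⟨g * x * g⁻¹, hg x x.2.1, B.QQ_conj z hz.pt g x x.2.2⟩ :
        (Z ⊓ Γ.QQ (g * z * g⁻¹) : Subgroup G)))
    intro a b hab
    have h2 := congrArg Subtype.val hab
    exact Subtype.ext (mul_left_cancel (mul_right_cancel h2))
  exact fun x hx hx' => (hz.le x hx hx').trans h1

/-- the glue -/
theorem glue (B : Γ.Basic) {T Z : Subgroup G} (S : Γ.Sit T Z) (hcol : ∀ z y, Max Γ Z z → Max Γ Z y → y ∈ Γ.QQ z) :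
    ∃ F : Subgroup G, F ≠ ⊥ ∧ F ≤ Z ∧ Γ.Sing F ∧ ∀ g : G, (∀ x ∈ Z, g * x * g⁻¹ ∈ Z) → ∀ x ∈ F, g * x * g⁻¹ ∈ F := by
  have hP : ∀ x ∈ Subgroup.closure {z | Max Γ Z z}, x = 1 ∨ (x ∈ Γ.Pt ∧ ∀ v, Max Γ Z v → v ∈ Γ.QQ x) := by
    intro x hx
    have step : ∀ v, Max Γ Z v → ∀ x, (x = 1 ∨ (x ∈ Γ.Pt ∧ ∀ v, Max Γ Z v → v ∈ Γ.QQ x)) →
        (v * x = 1 ∨ (v * x ∈ Γ.Pt ∧ ∀ w, Max Γ Z w → w ∈ Γ.QQ (v * x))) := by
      rintro v hv x (rfl | ⟨hx, hx'⟩)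
      · right
        rw [mul_one]
        exact ⟨hv.pt, fun w hw => hcol v w hv hw⟩
      · by_cases h1 : v = x
        · left; rw [h1]; exact B.pt_sq x hx
        · right
          have h2 : x ∈ Γ.QQ v := B.symm x hx v hv.pt (hx' v hv)
          exact ⟨B.line v hv.pt x hx h1 h2, fun w hw => B.line_inf v hv.pt x hx h1 h2 w (hcol v w hv hw) (hx' w hw)⟩
    induction hx using Subgroup.closure_induction_left with
    | one => exact Or.inl rfl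
    | mul_left v hv x _ ih => exact step v hv x ih
    | inv_mul_cancel v hv x _ ih =>
      have h1 : v⁻¹ = v := inv_eq_of_mul_eq_one_right (S.sq v (hv : Max Γ Z v).mem)
      rw [h1]
      exact step v hv x ih
  obtain ⟨z, hz⟩ := exists_max S
  refine ⟨Subgroup.closure {z | Max Γ Z z}, ?_, ?_, ⟨?_, ?_⟩, ?_⟩
  · intro h
    have h1 : z ∈ Subgroup.closure {z | Max Γ Z z} := Subgroup.subset_closure hz
    rw [h] at h1
    exact B.pt_ne z hz.pt (Subgroup.mem_bot.1 h1)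
  · rw [Subgroup.closure_le]
    exact fun v hv => (hv : Max Γ Z v).mem
  · exact fun x hx hx1 => ((hP x hx).resolve_left hx1).1
  · intro x hx hx1 y hy
    have h1 : Subgroup.closure {z | Max Γ Z z} ≤ Γ.QQ x := by
      rw [Subgroup.closure_le]
      exact fun v hv => ((hP x hx).resolve_left hx1).2 v hv
    exact h1 hy
  · intro g hg x hx
    have h1 : Subgroup.closure {z | Max Γ Z z} ≤ (Subgroup.closure {z | Max Γ Z z}).comap (MulAut.conj g).toMonoidHom := by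
      rw [Subgroup.closure_le]
      intro v hv
      show g * v * g⁻¹ ∈ Subgroup.closure {z | Max Γ Z z}
      exact Subgroup.subset_closure (conj_max B hv hg)
    exact h1 hx

/-- **The main claim.** -/
theorem mainC (F : Γ.Facts) : Γ.MainC := by
  intro T Z S
  have B := F.basic
  by_cases hcol : ∀ z y, Max Γ Z z → Max Γ Z y → y ∈ Γ.QQ z
  · exact Or.inr (glue B S hcol)
  · left
    push Not at hcol
    obtain ⟨z, y, hz, hy, hzy⟩ := hcol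
    have hyz : z ∉ Γ.QQ y := fun h' => hzy (B.symm y hy.pt z hz.pt h')
    obtain ⟨O₁, hO₁, hzO₁, hyK⟩ := typeO F S hz hy.mem hzy
    obtain ⟨O₂, hO₂, hyO₂, hzK⟩ := typeO F S hy hz.mem hyz
    by_cases h1 : y ∈ O₁
    · exact Opp.main ⟨F, S, hz, hy, hzy, hO₁, hzO₁, h1⟩
    by_cases h2 : z ∈ O₂
    · exact Opp.main ⟨F, S, hy, hz, hyz, hO₂, hyO₂, h2⟩
    exfalso
    have P : Pre Γ T Z z y O₁ O₂ := ⟨F, S, hz, hy, hzy, hO₁, hO₂, hzO₁, hyO₂, hyK, hzK, h1, h2⟩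
    obtain ⟨V, X, -, -, -, hX, hX'⟩ := P.exists_V
    exact Cfg.false ⟨P, hX, hX'⟩

end Cfsg.Agent.R2.M7.MainCP
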