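import Cfsg.Agent.R2.M7.Ark

/-!
# The main argument, first case: `z`, `y` not collinear, both in the ark `O` (helper18, S5539)
-/

set_option autoImplicit false
set_option linter.unusedSectionVars false

namespace Cfsg.Agent.R2.M7.T0

open Geo Elem Ark

variable {G : Type*} [Group G] [Finite G] {Γ : Geo G}

/-- (K2) -/
theorem exists_KK (F : Γ.Facts) {O : Subgroup G} (hO : O ∈ Γ.Ark) {z t u : G} (hz : z ∈ O) (hz' : z ∈ Γ.Pt) (ht : t ∈ O)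
    (ht' : t ∈ Γ.Pt) (hzt : t ∉ Γ.QQ z) (hu : u ∈ CC O) (h2 : u * u = 1) : ∃ v ∈ O, v ∈ Γ.Pt ∧ u ∈ Γ.KK O v := by
  have B := F.basic
  have A := F.ark
  obtain ⟨r, hr, hr', s, hs, hs', rfl⟩ := A.opp_sup O hO z hz hz' t ht ht' hzt u hu
  have htz : z ∉ Γ.QQ t := fun h => hzt (B.symm t ht' z hz' h)
  have hrt := CC_comm A hO hr ht
  have hsz := CC_comm A hO hs hz
  have hrinv : r⁻¹ * t = t * r⁻¹ := CC_comm A hO (Subgroup.inv_mem _ hr) ht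
  have hc1 : r⁻¹ * (s * r * s⁻¹) ∈ Γ.QQ z := Subgroup.mul_mem _ (Subgroup.inv_mem _ hr') (QQ_norm B hz' hsz hr')
  have hc2 : r⁻¹ * (s * r * s⁻¹) ∈ Γ.QQ t := by
    have h1 := QQ_norm B ht' hrinv hs'
    have e : r⁻¹ * (s * r * s⁻¹) = (r⁻¹ * s * r⁻¹⁻¹) * s⁻¹ := by group
    rw [e]
    exact Subgroup.mul_mem _ h1 (Subgroup.inv_mem _ hs')
  have hcC : r⁻¹ * (s * r * s⁻¹) ∈ CC O := Subgroup.mul_mem _ (Subgroup.inv_mem _ hr)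
    (Subgroup.mul_mem _ (Subgroup.mul_mem _ hs hr) (Subgroup.inv_mem _ hs))
  have hcO : r⁻¹ * (s * r * s⁻¹) ∈ O := A.opp_inf O hO z hz hz' t ht ht' hzt _ hcC hc1 hc2
  have hsq : (r * r) * (r⁻¹ * (s * r * s⁻¹)) * (s * s) = 1 := by
    rw [← h2]; group
  have key : r * r = 1 ∧ s * s = 1 ∧ r⁻¹ * (s * r * s⁻¹) = 1 := by
    generalize r⁻¹ * (s * r * s⁻¹) = c at *
    rcases F.qsq z hz' r hr' with h1 | h1 <;> rcases F.qsq t ht' s hs' with h3 | h3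
    · rw [h1, h3, one_mul, mul_one] at hsq
      exact ⟨h1, h3, hsq⟩
    · exfalso
      rw [h1, h3, one_mul] at hsq
      have : c = t := by
        rw [← inv_eq A hO ht]
        exact eq_inv_of_mul_eq_one_left hsq
      rw [this] at hc1
      exact hzt hc1
    · exfalso
      rw [h1, h3, mul_one] at hsq
      have : c = z := by
        rw [← inv_eq A hO hcO]
        exact (eq_inv_of_mul_eq_one_left hsq).symm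
      rw [this] at hc2
      exact htz hc2
    · exfalso
      rw [h1, h3] at hsq
      have : z * c = t := by
        rw [← inv_eq A hO ht]
        exact eq_inv_of_mul_eq_one_left hsq
      apply hzt
      rw [← this]
      exact Subgroup.mul_mem _ (B.QQ_self z hz') hc1
  obtain ⟨hr2, hs2, hc⟩ := key
  have hcomm : r * s = s * r := by
    calc r * s = r * (r⁻¹ * (s * r * s⁻¹)) * s := by rw [hc, mul_one]
      _ = s * r := by group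
  by_cases hsO : s ∈ O
  · exact ⟨z, hz, hz', KK_of hr hr' hsO⟩
  obtain ⟨V, hV, hVO, hV1, hV2, hV3⟩ := exists_V B A hO hsO
  have hcard : Nat.card V = 32 := by
    rw [ncard_eq V hV]
    exact A.V_card O hO t ht ht' s hs hs' hs2 hsO
  have htV : t ∈ V := hV2 t ht ht' (KK_of' hs hs')
  have hhalf : Nat.card V ≤ 2 * Nat.card (V ⊓ Γ.QQ z : Subgroup G) := by
    apply le_two
    intro a ha b hb ha' hb'
    rw [inv_eq A hO (hVO ha)]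
    exact mul_mem_QQ A hO hz hz' (hVO ha) (hVO hb) ha' hb'
  obtain ⟨v, ⟨hv, hvz⟩, hv1⟩ := exists_ne_one (E := V ⊓ Γ.QQ z) (by omega)
  obtain ⟨hvp, hsv⟩ := hV1 v hv hv1
  have hvne : v ≠ z := by
    rintro rfl
    exact htz (hV3 t htV (B.pt_ne t ht') v hv)
  obtain ⟨s₀, hs₀, hs₀', hs₀2, w, hw, rfl⟩ := KK_inv A hO hsv hs2
  have hrs₀ : r * s₀ = s₀ * r := by
    have h1 := CC_comm A hO hr hw
    apply mul_right_cancel (b := w)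
    calc r * s₀ * w = r * (s₀ * w) := by group
      _ = s₀ * w * r := hcomm
      _ = s₀ * (w * r) := by group
      _ = s₀ * (r * w) := by rw [h1]
      _ = _ := by group
  rcases A.lstar O hO z hz hz' v (hVO hv) hvp hvz hvne r hr hr' s₀ hs₀ hs₀' hrs₀ with h | h | h
  · exact ⟨v, hVO hv, hvp, Subgroup.mul_mem _ h hsv⟩
  · exact ⟨z, hz, hz', Subgroup.mul_mem _ (KK_of' hr hr') (Subgroup.mul_mem _ h (O_le_KK hw))⟩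
  · refine ⟨z * v, O.mul_mem hz (hVO hv), B.line z hz' v hvp hvne.symm hvz, ?_⟩
    rw [← mul_assoc]
    exact Subgroup.mul_mem _ h (O_le_KK hw)

/-- the points `z` of `Z` with `|Z ∩ QQ z|` maximal -/
structure Max (Γ : Geo G) (Z : Subgroup G) (z : G) : Prop where
  mem : z ∈ Z
  pt : z ∈ Γ.Pt
  le : ∀ x ∈ Z, x ∈ Γ.Pt → Nat.card (Z ⊓ Γ.QQ x : Subgroup G) ≤ Nat.card (Z ⊓ Γ.QQ z : Subgroup G)

theorem Max.eq {Z : Subgroup G} {z y : G} (hz : Max Γ Z z) (hy : Max Γ Z y) :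
    Nat.card (Z ⊓ Γ.QQ z : Subgroup G) = Nat.card (Z ⊓ Γ.QQ y : Subgroup G) :=
  le_antisymm (hy.le z hz.mem hz.pt) (hz.le y hy.mem hy.pt)

theorem typeO {T Z : Subgroup G} (F : Γ.Facts) (S : Γ.Sit T Z) {z y : G} (hz : Max Γ Z z) (hy : y ∈ Z) (hzy : y ∉ Γ.QQ z) :
    ∃ O ∈ Γ.Ark, z ∈ O ∧ y ∈ Γ.KK O z := by
  have B := F.basic
  rcases F.type z hz.pt y (S.ab y hy z hz.mem) hzy (S.sq y hy) with ⟨c, hc, hcz, hyc, hcent, hs⟩ | h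
  · exfalso
    have hcZ : c ∈ Z := S.all c (B.pt_sq c hc) fun t ht => hcent t (S.comm z hz.mem t ht) (S.comm y hy t ht)
    have h1 : Z ⊓ Γ.QQ z ≤ Z ⊓ Γ.QQ c := fun s hs' => ⟨hs'.1, hs s hs'.2 (S.sq s hs'.1) (S.ab s hs'.1 y hy)⟩
    have h2 := two_mul_le' h1 (x := y) ⟨hy, hyc⟩ fun h => hzy h.2
    have h3 := hz.le c hcZ hc
    have h4 : 0 < Nat.card (Z ⊓ Γ.QQ z : Subgroup G) := Nat.card_pos
    omega
  · exact h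

/-- a nontrivial `T`-invariant subgroup of exponent 2 meets `Z` -/
theorem fix {T Z : Subgroup G} (S : Γ.Sit T Z) {E : Subgroup G} (hE : ∀ a ∈ E, a * a = 1) (h1 : 1 < Nat.card E)
    (hinv : ∀ t ∈ T, ∀ a ∈ E, t * a * t⁻¹ ∈ E) : ∃ p ∈ E, p ≠ 1 ∧ p ∈ Z := by
  obtain ⟨e, he, hne⟩ := exists_ne_one h1
  obtain ⟨x, hx, hx1, hx'⟩ := fixed S.two hE he hne hinv
  exact ⟨x, hx, hx1, S.all x (hE x hx) hx'⟩

/-- the situation of this file -/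
structure Opp (Γ : Geo G) (T Z : Subgroup G) (z y : G) (O : Subgroup G) : Prop where
  F : Γ.Facts
  S : Γ.Sit T Z
  hz : Max Γ Z z
  hy : Max Γ Z y
  zy : y ∉ Γ.QQ z
  hO : O ∈ Γ.Ark
  z_mem : z ∈ O
  y_mem : y ∈ O

namespace Opp

variable {T Z : Subgroup G} {z y : G} {O : Subgroup G} (h : Opp Γ T Z z y O)
include h

theorem yz : z ∉ Γ.QQ y := fun h' => h.zy (h.F.basic.symm y h.hy.pt z h.hz.pt h')

theorem symm : Opp Γ T Z y z O := ⟨h.F, h.S, h.hy, h.hz, h.yz, h.hO, h.y_mem, h.z_mem⟩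

theorem cent {x : G} (hx : x ∈ Z) (hxz : x ∈ Γ.QQ z) : x ∈ CC O :=
  h.F.ark.cent_le O h.hO z h.z_mem h.hz.pt y (O_le_KK h.y_mem) h.zy x hxz (h.S.ab x hx y h.hy.mem)

theorem norm {t : G} (ht : t ∈ T) : cj t O = O :=
  norm_of h.F.basic h.F.ark h.hO h.z_mem h.hz.pt (O_le_KK h.y_mem) h.zy (h.S.comm z h.hz.mem t ht)
    (h.S.comm y h.hy.mem t ht)

/-- the common part -/
theorem inf_mem {x : G} (hx : x ∈ Z) (hxz : x ∈ Γ.QQ z) (hxy : x ∈ Γ.QQ y) : x ∈ O :=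
  h.F.ark.opp_inf O h.hO z h.z_mem h.hz.pt y h.y_mem h.hy.pt h.zy x (h.cent hx hxz) hxz hxy

theorem card_Wz : Nat.card (Z ⊓ O ⊓ Γ.QQ z : Subgroup G) = 2 * Nat.card (Z ⊓ O ⊓ Γ.QQ z ⊓ Γ.QQ y : Subgroup G) := by
  apply le_antisymm
  · apply le_two
    intro a ha b hb ha' hb'
    rw [inv_eq h.F.ark h.hO ha.1.2]
    exact mul_mem_QQ h.F.ark h.hO h.y_mem h.hy.pt ha.1.2 hb.1.2 ha' hb'
  · exact two_mul_le' inf_le_left (x := z) ⟨⟨h.hz.mem, h.z_mem⟩, h.F.basic.QQ_self z h.hz.pt⟩ fun h' => h.yz h'.2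

theorem card_O : Nat.card (Z ⊓ O : Subgroup G) = 2 * Nat.card (Z ⊓ O ⊓ Γ.QQ z : Subgroup G) := by
  apply le_antisymm
  · apply le_two
    intro a ha b hb ha' hb'
    rw [inv_eq h.F.ark h.hO ha.2]
    exact mul_mem_QQ h.F.ark h.hO h.z_mem h.hz.pt ha.2 hb.2 ha' hb'
  · exact two_mul_le' inf_le_left (x := y) ⟨h.hy.mem, h.y_mem⟩ fun h' => h.zy h'.2

theorem W_symm : (Z ⊓ O ⊓ Γ.QQ z ⊓ Γ.QQ y : Subgroup G) = Z ⊓ O ⊓ Γ.QQ y ⊓ Γ.QQ z := inf_right_comm _ _ _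

/-- **Case A.** -/
theorem caseA (hA : Z ⊓ Γ.QQ z ≤ O) : Z ∈ Γ.Ark := by
  have B := h.F.basic
  have A := h.F.ark
  have c1 := h.card_Wz
  have c2 := h.card_O
  have hpos : 0 < Nat.card (Z ⊓ O ⊓ Γ.QQ z ⊓ Γ.QQ y : Subgroup G) := Nat.card_pos
  have e1 : Z ⊓ Γ.QQ z = Z ⊓ O ⊓ Γ.QQ z :=
    le_antisymm (fun x hx => ⟨⟨hx.1, hA hx⟩, hx.2⟩) (fun x hx => ⟨hx.1.1, hx.2⟩)
  by_cases hT : ∃ t ∈ T, ∃ a ∈ O, t * a ≠ a * t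
  · exfalso
    obtain ⟨v, hv, hvp, hvT, hv2⟩ := A.omega O h.hO T h.S.two (fun t ht a ha => norm_mem A h.hO (h.norm ht) ha) hT
    have hvZ : v ∈ Z := h.S.all v (A.sq O h.hO v hv) hvT
    have h1 : Z ⊓ O ≤ Z ⊓ Γ.QQ v := fun a ha => ⟨ha.1, hv2 a ha.2 fun t ht => h.S.comm a ha.1 t ht⟩
    have h2 := card_le h1
    have h3 := h.hz.le v hvZ hvp
    rw [e1] at h3
    omega
  · push Not at hT
    have hOZ : O ≤ Z := fun a ha => h.S.all a (A.sq O h.hO a ha) fun t ht => hT t ht a ha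
    have e2 : Z ⊓ O = O := inf_eq_right.2 hOZ
    rw [e2, A.card O h.hO] at c2
    suffices hZ : Z ≤ O by
      rw [le_antisymm hZ hOZ]
      exact h.hO
    by_contra hcon
    obtain ⟨u, hu, huO⟩ := Set.not_subset.1 hcon
    have huC : u ∈ CC O := mem_CC.2 fun a ha => h.S.ab a (hOZ ha) u hu
    obtain ⟨v, hv, hvp, huv⟩ := exists_KK h.F h.hO h.z_mem h.hz.pt h.y_mem h.hy.pt h.zy huC (h.S.sq u hu)
    obtain ⟨r, hr, hr', t, ht, rfl⟩ := mem_KK huv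
    have hrZ : r ∈ Z := by
      have e : r = r * t * t⁻¹ := by group
      rw [e]
      exact Z.mul_mem hu (Z.inv_mem (hOZ ht))
    have hrO : r ∉ O := fun h' => huO (O.mul_mem h' ht)
    have h1 : Nat.card O ≤ 2 * Nat.card (O ⊓ Γ.QQ v : Subgroup G) := by
      apply le_two
      intro a ha b hb ha' hb'
      rw [inv_eq A h.hO ha]
      exact mul_mem_QQ A h.hO hv hvp ha hb ha' hb'
    have h2 : 2 * Nat.card (O ⊓ Γ.QQ v : Subgroup G) ≤ Nat.card (Z ⊓ Γ.QQ v : Subgroup G) :=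
      two_mul_le' (inf_le_inf_right _ hOZ) (x := r) ⟨hrZ, hr'⟩ fun h' => hrO h'.1
    have h3 := h.hz.le v (hOZ hv) hvp
    have h4 := A.card O h.hO
    rw [e1] at h3
    rw [h4] at h1
    rw [e2] at h3 c1
    omega

/-- (a7) -/
theorem key {s p a : G} (hs : s ∈ Z) (hsy : s ∈ Γ.QQ y) (hsO : s ∉ O) (hp : p ∈ O) (hp' : p ∈ Γ.Pt) (hpz : p ∈ Γ.QQ z)
    (hsp : s ∈ Γ.KK O p) (ha : a ∈ Z) (haz : a ∈ Γ.QQ z) (hap : a ∉ Γ.KK O p) : a * s ∈ Γ.KK O (z * p) := by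
  have B := h.F.basic
  have A := h.F.ark
  have haC := h.cent ha haz
  have hsC := h.symm.cent hs hsy
  have hne : p ≠ z := by
    rintro rfl
    exact hap (KK_of' haC haz)
  obtain ⟨r, hr, hr', hr2, t, ht, rfl⟩ := KK_inv A h.hO hsp (h.S.sq s hs)
  have har : a * r = r * a := by
    have h1 := CC_comm A h.hO haC ht
    have h2 := h.S.ab a ha _ hs
    apply mul_right_cancel (b := t)
    calc a * r * t = a * (r * t) := by group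
      _ = r * t * a := h2
      _ = r * (t * a) := by group
      _ = r * (a * t) := by rw [h1]
      _ = _ := by group
  rcases A.lstar O h.hO z h.z_mem h.hz.pt p hp hp' hpz hne a haC haz r hr hr' har with h1 | h1 | h1
  · exact absurd h1 hap
  · exfalso
    apply hsO
    exact KK_opp B A h.hO h.z_mem h.y_mem h.hz.pt h.hy.pt h.zy (Subgroup.mul_mem _ h1 (O_le_KK ht)) (KK_of' hsC hsy)
  · rw [← mul_assoc]
    exact Subgroup.mul_mem _ h1 (O_le_KK ht)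

/-- (II) -/
theorem two {s p : G} (hs : s ∈ Z) (hsy : s ∈ Γ.QQ y) (hsO : s ∉ O) (hp : p ∈ O) (hp' : p ∈ Γ.Pt) (hpz : p ∈ Γ.QQ z)
    (hsp : s ∈ Γ.KK O p) :
    Nat.card (Z ⊓ Γ.QQ z : Subgroup G) ≤ 2 * Nat.card (Z ⊓ Γ.QQ z ⊓ Γ.KK O p : Subgroup G) := by
  have B := h.F.basic
  have A := h.F.ark
  apply le_two
  intro a ha b hb ha' hb'
  have hne : z ≠ p := by
    rintro rfl
    exact ha' (KK_of' (h.cent ha.1 ha.2) ha.2)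
  have h1 := h.key hs hsy hsO hp hp' hpz hsp ha.1 ha.2 ha'
  have h2 := h.key hs hsy hsO hp hp' hpz hsp hb.1 hb.2 hb'
  have h3 : a⁻¹ * b ∈ Γ.KK O (z * p) := by
    have h4 := Subgroup.mul_mem _ (Subgroup.inv_mem _ h1) h2
    have e : (a * s)⁻¹ * (b * s) = a⁻¹ * b := by
      have hsa : s * (a⁻¹ * b) = (a⁻¹ * b) * s := h.S.ab s hs _ (Z.mul_mem (Z.inv_mem ha.1) hb.1)
      calc (a * s)⁻¹ * (b * s) = s⁻¹ * ((a⁻¹ * b) * s) := by group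
        _ = s⁻¹ * (s * (a⁻¹ * b)) := by rw [hsa]
        _ = _ := by group
    rwa [e] at h4
  have h5 : a⁻¹ * b ∈ Γ.KK O z := KK_of' (h.cent (Z.mul_mem (Z.inv_mem ha.1) hb.1)
    (Subgroup.mul_mem _ (Subgroup.inv_mem _ ha.2) hb.2)) (Subgroup.mul_mem _ (Subgroup.inv_mem _ ha.2) hb.2)
  have hzp : z * p ∈ Γ.Pt := B.line z h.hz.pt p hp' hne hpz
  have hz1 : z * (z * p) = p := by rw [← mul_assoc, B.pt_sq z h.hz.pt, one_mul]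
  have h6 := KK_mul B A h.hO h.z_mem (O.mul_mem h.z_mem hp) h.hz.pt hzp
    (fun h' => B.pt_ne p hp' (by rw [← hz1, ← h']; exact B.pt_sq z h.hz.pt))
    (Subgroup.mul_mem _ (B.QQ_self z h.hz.pt) hpz) h5 h3
  rwa [hz1] at h6

/-- (I) -/
theorem one {p : G} (hpZ : p ∈ Z) (hp : p ∈ O) (hp' : p ∈ Γ.Pt) :
    Nat.card (Z ⊓ Γ.QQ z ⊓ Γ.KK O p : Subgroup G) * Nat.card (Z ⊓ Γ.QQ y ⊓ Γ.KK O p : Subgroup G) ≤
      2 * Nat.card (Z ⊓ Γ.QQ z : Subgroup G) * Nat.card (Z ⊓ O ⊓ Γ.QQ z ⊓ Γ.QQ y : Subgroup G) := by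
  have A := h.F.ark
  have h1 : Nat.card (Z ⊓ Γ.QQ z ⊓ Γ.KK O p : Subgroup G) * Nat.card (Z ⊓ Γ.QQ y ⊓ Γ.KK O p : Subgroup G) ≤
      Nat.card (Z ⊓ Γ.KK O p : Subgroup G) *
        Nat.card ((Z ⊓ Γ.QQ z ⊓ Γ.KK O p) ⊓ (Z ⊓ Γ.QQ y ⊓ Γ.KK O p) : Subgroup G) :=
    mul_le (inf_le_inf_right _ inf_le_left) (inf_le_inf_right _ inf_le_left)
  have h2 : Nat.card ((Z ⊓ Γ.QQ z ⊓ Γ.KK O p) ⊓ (Z ⊓ Γ.QQ y ⊓ Γ.KK O p) : Subgroup G) ≤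
      Nat.card (Z ⊓ O ⊓ Γ.QQ z ⊓ Γ.QQ y : Subgroup G) := by
    apply card_le
    intro x hx
    exact ⟨⟨⟨hx.1.1.1, h.inf_mem hx.1.1.1 hx.1.1.2 hx.2.1.2⟩, hx.1.1.2⟩, hx.2.1.2⟩
  have h3 : Nat.card (Z ⊓ Γ.KK O p : Subgroup G) ≤ 2 * Nat.card (Z ⊓ Γ.KK O p ⊓ Γ.QQ p : Subgroup G) := by
    apply le_two
    intro a ha b hb ha' hb'
    exact KK_two A h.hO hp hp' ha.2 hb.2 ha' hb'
  have h4 : Nat.card (Z ⊓ Γ.KK O p ⊓ Γ.QQ p : Subgroup G) ≤ Nat.card (Z ⊓ Γ.QQ p : Subgroup G) :=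
    card_le (inf_le_inf_right _ inf_le_left)
  have h5 := h.hz.le p hpZ hp'
  calc _ ≤ _ := h1
    _ ≤ Nat.card (Z ⊓ Γ.KK O p : Subgroup G) * Nat.card (Z ⊓ O ⊓ Γ.QQ z ⊓ Γ.QQ y : Subgroup G) :=
      Nat.mul_le_mul_left _ h2
    _ ≤ _ := Nat.mul_le_mul_right _ (by omega)

/-- `|B_p| ≤ 4 w` -/
theorem three {s p : G} (hs : s ∈ Z) (hsy : s ∈ Γ.QQ y) (hsO : s ∉ O) (hpZ : p ∈ Z) (hp : p ∈ O) (hp' : p ∈ Γ.Pt)
    (hpz : p ∈ Γ.QQ z) (hsp : s ∈ Γ.KK O p) :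
    Nat.card (Z ⊓ Γ.QQ y ⊓ Γ.KK O p : Subgroup G) ≤ 4 * Nat.card (Z ⊓ O ⊓ Γ.QQ z ⊓ Γ.QQ y : Subgroup G) := by
  have h1 := h.two hs hsy hsO hp hp' hpz hsp
  have h2 := h.one hpZ hp hp'
  have hpos : 0 < Nat.card (Z ⊓ Γ.QQ z : Subgroup G) := Nat.card_pos
  generalize Nat.card (Z ⊓ Γ.QQ z : Subgroup G) = m at *
  generalize Nat.card (Z ⊓ Γ.QQ z ⊓ Γ.KK O p : Subgroup G) = a at *
  generalize Nat.card (Z ⊓ Γ.QQ y ⊓ Γ.KK O p : Subgroup G) = b at *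
  generalize Nat.card (Z ⊓ O ⊓ Γ.QQ z ⊓ Γ.QQ y : Subgroup G) = w at *
  have h3 : m * b ≤ 2 * (a * b) := by nlinarith
  have h4 : m * b ≤ m * (4 * w) := by nlinarith
  exact Nat.le_of_mul_le_mul_left h4 hpos

/-- a fixed point -/
theorem exists_p {s : G} (hs : s ∈ Z) (hsO : s ∉ O) {E : Subgroup G} (hEO : E ≤ O)
    (hE : ∀ v ∈ E, v ≠ 1 → v ∈ Γ.Pt ∧ s ∈ Γ.KK O v) (hinv : ∀ t ∈ T, ∀ a ∈ E, t * a * t⁻¹ ∈ E) (hc : 1 < Nat.card E) :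
    ∃ p ∈ E, p ∈ Z ∧ p ∈ O ∧ p ∈ Γ.Pt ∧ s ∈ Γ.KK O p := by
  obtain ⟨p, hp, hp1, hpZ⟩ := fix h.S (fun a ha => h.F.ark.sq O h.hO a (hEO ha)) hc hinv
  exact ⟨p, hp, hpZ, hEO hp, (hE p hp hp1).1, (hE p hp hp1).2⟩

theorem QQ_inv {t q : G} {c : G} (hc : c ∈ Z) (hc' : c ∈ Γ.Pt) (ht : t ∈ T) (hq : q ∈ Γ.QQ c) : t * q * t⁻¹ ∈ Γ.QQ c :=
  QQ_norm h.F.basic hc' (h.S.comm c hc t ht) hq

/-- two elements of `Z_y ∖ O` -/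
theorem four {s s' : G} (hs : s ∈ Z) (hsy : s ∈ Γ.QQ y) (hsO : s ∉ O) (hs' : s' ∈ Z) (hsy' : s' ∈ Γ.QQ y) (hsO' : s' ∉ O) :
    s * s' ∈ O := by
  by_contra hcon
  have B := h.F.basic
  have A := h.F.ark
  have k1 : s ∈ Γ.KK O y := KK_of' (h.symm.cent hs hsy) hsy
  have k2 : s' ∈ Γ.KK O y := KK_of' (h.symm.cent hs' hsy') hsy'
  have h1 := V_inter' B A h.hO h.y_mem h.hy.pt k1 (h.S.sq s hs) hsO k2 (h.S.sq s' hs') hsO' (h.S.ab s hs s' hs') hcon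
  obtain ⟨V, hV, hVO, hV1, hV2, hV3⟩ := exists_V B A h.hO hsO
  obtain ⟨V', hV', hVO', hV1', hV2', hV3'⟩ := exists_V B A h.hO hsO'
  have h2 : 8 ≤ Nat.card (V ⊓ V' : Subgroup G) := by
    rw [ncard_eq (V ⊓ V') (S := Γ.Vs O s ∩ Γ.Vs O s')]
    · exact h1
    · intro v
      rw [Subgroup.mem_inf, hV, hV']
      rfl
  have h3 : Nat.card (V ⊓ V' : Subgroup G) ≤ 2 * Nat.card (V ⊓ V' ⊓ Γ.QQ z : Subgroup G) := by
    apply le_two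
    intro a ha b hb ha' hb'
    rw [inv_eq A h.hO (hVO ha.1)]
    exact mul_mem_QQ A h.hO h.z_mem h.hz.pt (hVO ha.1) (hVO hb.1) ha' hb'
  obtain ⟨p, hpE, hpZ, hpO, hp', hsp⟩ := h.exists_p hs hsO (E := V ⊓ V' ⊓ Γ.QQ z) (fun x hx => hVO hx.1.1)
    (fun v hv => hV1 v hv.1.1) (by
      intro t ht a ha
      refine ⟨⟨?_, ?_⟩, h.QQ_inv h.hz.mem h.hz.pt ht ha.2⟩
      · show t * a * t⁻¹ ∈ V
        rw [hV]
        exact norm_Vs B A h.hO (h.norm ht) (h.S.comm s hs t ht) ((hV a).1 ha.1.1)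
      · show t * a * t⁻¹ ∈ V'
        rw [hV']
        exact norm_Vs B A h.hO (h.norm ht) (h.S.comm s' hs' t ht) ((hV' a).1 ha.1.2)) (by omega)
  have hsp' : s' ∈ Γ.KK O p := (hV1' p hpE.1.2 (B.pt_ne p hp')).2
  have h4 := h.three hs hsy hsO hpZ hpO hp' hpE.2 hsp
  have h5 := h.symm.card_Wz
  rw [← h.W_symm] at h5
  have h6 := mem_of_le_two (S := Z ⊓ Γ.QQ y ⊓ Γ.KK O p) (R := Z ⊓ O ⊓ Γ.QQ y)
    (fun x hx => ⟨⟨hx.1.1, hx.2⟩, O_le_KK hx.1.2⟩) (by omega) (a := s) (b := s') ⟨⟨hs, hsy⟩, hsp⟩ ⟨⟨hs', hsy'⟩, hsp'⟩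
    (fun h' => hsO h'.1.2) (fun h' => hsO' h'.1.2)
  apply hcon
  have h7 : s⁻¹ = s := inv_eq_of_mul_eq_one_right (h.S.sq s hs)
  rw [h7] at h6
  exact h6.1.2

/-- `|Z_y| ≤ 4 w` -/
theorem five : Nat.card (Z ⊓ Γ.QQ y : Subgroup G) ≤ 4 * Nat.card (Z ⊓ O ⊓ Γ.QQ z ⊓ Γ.QQ y : Subgroup G) := by
  have h1 : Nat.card (Z ⊓ Γ.QQ y : Subgroup G) ≤ 2 * Nat.card (Z ⊓ Γ.QQ y ⊓ O : Subgroup G) := by
    apply le_two
    intro a ha b hb ha' hb'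
    have h7 : a⁻¹ = a := inv_eq_of_mul_eq_one_right (h.S.sq a ha.1)
    rw [h7]
    exact h.four ha.1 ha.2 ha' hb.1 hb.2 hb'
  have h2 := h.symm.card_Wz
  rw [← h.W_symm] at h2
  have h3 : Z ⊓ Γ.QQ y ⊓ O = Z ⊓ O ⊓ Γ.QQ y := inf_right_comm _ _ _
  rw [h3] at h1
  omega

/-- (III) -/
theorem six (hB : ¬ Z ⊓ Γ.QQ z ≤ O) :
    Nat.card (Z ⊓ Γ.QQ z : Subgroup G) = 4 * Nat.card (Z ⊓ O ⊓ Γ.QQ z ⊓ Γ.QQ y : Subgroup G) := by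
  have h1 := h.card_Wz
  have h2 : 2 * Nat.card (Z ⊓ O ⊓ Γ.QQ z : Subgroup G) ≤ Nat.card (Z ⊓ Γ.QQ z : Subgroup G) :=
    two_mul_le (fun x hx => ⟨hx.1.1, hx.2⟩) fun h' => hB fun x hx => (h' hx).1.2
  have h3 := h.five
  rw [← h.hz.eq h.hy] at h3
  omega

theorem symm_ne (hB : ¬ Z ⊓ Γ.QQ z ≤ O) : ¬ Z ⊓ Γ.QQ y ≤ O := by
  intro hcon
  have h1 := h.six hB
  have h2 := h.symm.card_Wz
  rw [← h.W_symm] at h2
  have h3 : Nat.card (Z ⊓ Γ.QQ y : Subgroup G) ≤ Nat.card (Z ⊓ O ⊓ Γ.QQ y : Subgroup G) :=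
    card_le fun x hx => ⟨⟨hx.1, hcon hx⟩, hx.2⟩
  rw [← h.hz.eq h.hy] at h3
  have hpos : 0 < Nat.card (Z ⊓ O ⊓ Γ.QQ z ⊓ Γ.QQ y : Subgroup G) := Nat.card_pos
  omega

/-- (IV) -/
theorem seven {s₁ s p : G} (hs₁ : s₁ ∈ Z) (hsz : s₁ ∈ Γ.QQ z) (hsO₁ : s₁ ∉ O) (hs : s ∈ Z) (hsy : s ∈ Γ.QQ y) (hsO : s ∉ O)
    (hpZ : p ∈ Z) (hp : p ∈ O) (hp' : p ∈ Γ.Pt) (hsp : s ∈ Γ.KK O p) : s₁ ∉ Γ.KK O p := by
  intro hcon
  have h0 := h.six fun h' => hsO₁ (h' ⟨hs₁, hsz⟩)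
  have h1 := h.card_Wz
  have h2 := h.symm.card_Wz
  rw [← h.W_symm] at h2
  have h3 : 2 * Nat.card (Z ⊓ O ⊓ Γ.QQ z : Subgroup G) ≤ Nat.card (Z ⊓ Γ.QQ z ⊓ Γ.KK O p : Subgroup G) :=
    two_mul_le' (fun x hx => ⟨⟨hx.1.1, hx.2⟩, O_le_KK hx.1.2⟩) (x := s₁) ⟨⟨hs₁, hsz⟩, hcon⟩ fun h' => hsO₁ h'.1.2
  have h4 : 2 * Nat.card (Z ⊓ O ⊓ Γ.QQ y : Subgroup G) ≤ Nat.card (Z ⊓ Γ.QQ y ⊓ Γ.KK O p : Subgroup G) :=
    two_mul_le' (fun x hx => ⟨⟨hx.1.1, hx.2⟩, O_le_KK hx.1.2⟩) (x := s) ⟨⟨hs, hsy⟩, hsp⟩ fun h' => hsO h'.1.2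
  have h5 := h.one hpZ hp hp'
  have hpos : 0 < Nat.card (Z ⊓ O ⊓ Γ.QQ z ⊓ Γ.QQ y : Subgroup G) := Nat.card_pos
  rw [h1] at h3
  rw [h2] at h4
  rw [h0] at h5
  generalize Nat.card (Z ⊓ Γ.QQ z ⊓ Γ.KK O p : Subgroup G) = a at *
  generalize Nat.card (Z ⊓ Γ.QQ y ⊓ Γ.KK O p : Subgroup G) = b at *
  generalize Nat.card (Z ⊓ O ⊓ Γ.QQ z ⊓ Γ.QQ y : Subgroup G) = w at *
  have h6 := Nat.mul_le_mul h3 h4
  nlinarith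

/-- **Case B.** -/
theorem caseB (hB : ¬ Z ⊓ Γ.QQ z ≤ O) : False := by
  have B := h.F.basic
  have A := h.F.ark
  obtain ⟨s₁, ⟨hs₁, hs₁z⟩, hs₁O⟩ := Set.not_subset.1 hB
  obtain ⟨s₂, ⟨hs₂, hs₂y⟩, hs₂O⟩ := Set.not_subset.1 (h.symm_ne hB)
  have k1 : s₁ ∈ Γ.KK O z := KK_of' (h.cent hs₁ hs₁z) hs₁z
  have k2 : s₂ ∈ Γ.KK O y := KK_of' (h.symm.cent hs₂ hs₂y) hs₂y
  obtain ⟨V₁, hV₁, hVO₁, hV₁1, hV₁2, hV₁3⟩ := exists_V B A h.hO hs₁O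
  obtain ⟨V₂, hV₂, hVO₂, hV₂1, hV₂2, hV₂3⟩ := exists_V B A h.hO hs₂O
  have c1 : Nat.card V₁ = 32 := by
    rw [ncard_eq V₁ hV₁]
    exact V_card' B A h.hO h.z_mem h.hz.pt k1 (h.S.sq _ hs₁) hs₁O
  have c2 : Nat.card V₂ = 32 := by
    rw [ncard_eq V₂ hV₂]
    exact V_card' B A h.hO h.y_mem h.hy.pt k2 (h.S.sq _ hs₂) hs₂O
  have d1 : Nat.card V₁ ≤ 2 * Nat.card (V₁ ⊓ Γ.QQ y : Subgroup G) := by
    apply le_two
    intro a ha b hb ha' hb'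
    rw [inv_eq A h.hO (hVO₁ ha)]
    exact mul_mem_QQ A h.hO h.y_mem h.hy.pt (hVO₁ ha) (hVO₁ hb) ha' hb'
  obtain ⟨p', hpE', hpZ', hpO', hpP', hsp'⟩ := h.exists_p hs₁ hs₁O (E := V₁ ⊓ Γ.QQ y) (fun x hx => hVO₁ hx.1)
    (fun v hv => hV₁1 v hv.1) (by
      intro t ht a ha
      refine ⟨?_, h.QQ_inv h.hy.mem h.hy.pt ht ha.2⟩
      show t * a * t⁻¹ ∈ V₁
      rw [hV₁]
      exact norm_Vs B A h.hO (h.norm ht) (h.S.comm _ hs₁ t ht) ((hV₁ a).1 ha.1)) (by omega)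
  have d2 : Nat.card V₂ ≤ 2 * Nat.card (V₂ ⊓ Γ.QQ z : Subgroup G) := by
    apply le_two
    intro a ha b hb ha' hb'
    rw [inv_eq A h.hO (hVO₂ ha)]
    exact mul_mem_QQ A h.hO h.z_mem h.hz.pt (hVO₂ ha) (hVO₂ hb) ha' hb'
  have d3 : Nat.card (V₂ ⊓ Γ.QQ z : Subgroup G) ≤ 2 * Nat.card (V₂ ⊓ Γ.QQ z ⊓ Γ.QQ p' : Subgroup G) := by
    apply le_two
    intro a ha b hb ha' hb'
    rw [inv_eq A h.hO (hVO₂ ha.1)]
    exact mul_mem_QQ A h.hO hpO' hpP' (hVO₂ ha.1) (hVO₂ hb.1) ha' hb'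
  obtain ⟨p, hpE, hpZ, hpO, hpP, hsp⟩ := h.exists_p hs₂ hs₂O (E := V₂ ⊓ Γ.QQ z ⊓ Γ.QQ p') (fun x hx => hVO₂ hx.1.1)
    (fun v hv => hV₂1 v hv.1.1) (by
      intro t ht a ha
      refine ⟨⟨?_, h.QQ_inv h.hz.mem h.hz.pt ht ha.1.2⟩, h.QQ_inv hpZ' hpP' ht ha.2⟩
      show t * a * t⁻¹ ∈ V₂
      rw [hV₂]
      exact norm_Vs B A h.hO (h.norm ht) (h.S.comm _ hs₂ t ht) ((hV₂ a).1 ha.1.1)) (by omega)
  have hyV₂ : y ∈ V₂ := hV₂2 y h.y_mem h.hy.pt k2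
  have hzV₁ : z ∈ V₁ := hV₁2 z h.z_mem h.hz.pt k1
  have hpy : p ∈ Γ.QQ y := hV₂3 y hyV₂ (B.pt_ne y h.hy.pt) p hpE.1.1
  have hpz' : p' ∈ Γ.QQ z := hV₁3 z hzV₁ (B.pt_ne z h.hz.pt) p' hpE'.1
  have n1 : s₁ ∉ Γ.KK O p := h.seven hs₁ hs₁z hs₁O hs₂ hs₂y hs₂O hpZ hpO hpP hsp
  have n2 : s₂ ∉ Γ.KK O p' := h.symm.seven hs₂ hs₂y hs₂O hs₁ hs₁z hs₁O hpZ' hpO' hpP' hsp'
  have u1 : s₁ * s₂ ∈ Γ.KK O (z * p) := h.key hs₂ hs₂y hs₂O hpO hpP hpE.1.2 hsp hs₁ hs₁z n1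
  have u2 : s₂ * s₁ ∈ Γ.KK O (y * p') := h.symm.key hs₁ hs₁z hs₁O hpO' hpP' hpE'.2 hsp' hs₂ hs₂y n2
  rw [h.S.ab s₂ hs₂ s₁ hs₁] at u2
  have z_ne : z ≠ p := by
    rintro rfl
    exact n1 k1
  have y_ne : y ≠ p' := by
    rintro rfl
    exact n2 k2
  have hzp : z * p ∈ Γ.Pt := B.line z h.hz.pt p hpP z_ne hpE.1.2
  have hyp : y * p' ∈ Γ.Pt := B.line y h.hy.pt p' hpP' y_ne hpE'.2
  have hzpO : z * p ∈ O := O.mul_mem h.z_mem hpO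
  have hypO : y * p' ∈ O := O.mul_mem h.y_mem hpO'
  have hopp : z * p ∉ Γ.QQ (y * p') := by
    rw [not_mem_QQ A h.hO hypO hyp hzpO, A.bet_mul O h.hO z h.z_mem p hpO _ hypO,
      bet_mul_right A h.hO h.z_mem h.y_mem hpO', bet_mul_right A h.hO hpO h.y_mem hpO']
    have b1 : Γ.bet z y = 1 := (not_mem_QQ A h.hO h.y_mem h.hy.pt h.z_mem).1 h.yz
    have b2 : Γ.bet z p' = 0 := by
      rw [bet_symm A h.hO h.z_mem hpO']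
      exact (A.bet_iff O h.hO z h.z_mem h.hz.pt p' hpO').1 hpz'
    have b3 : Γ.bet p y = 0 := (A.bet_iff O h.hO y h.y_mem h.hy.pt p hpO).1 hpy
    have b4 : Γ.bet p p' = 0 := (A.bet_iff O h.hO p' hpO' hpP' p hpO).1 hpE.2
    rw [b1, b2, b3, b4]
    decide
  have hu : s₁ * s₂ ∈ O := KK_opp B A h.hO hypO hzpO hyp hzp hopp u2 u1
  apply hs₂O
  apply KK_opp B A h.hO h.z_mem h.y_mem h.hz.pt h.hy.pt h.zy _ k2
  have e : s₂ = s₁⁻¹ * (s₁ * s₂) := by group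
  rw [e]
  exact Subgroup.mul_mem _ (Subgroup.inv_mem _ k1) (O_le_KK hu)

theorem main : Z ∈ Γ.Ark := by
  by_cases hB : Z ⊓ Γ.QQ z ≤ O
  · exact h.caseA hB
  · exact (h.caseB hB).elim

end Opp

end Cfsg.Agent.R2.M7.T0
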