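import Cfsg.Agent.R2.M7.T0

/-!
# The main argument, second case (helper18, S5539)

`z`, `y` are points of `Z` which are not collinear, `O₁ = O(z, y)`, `O₂ = O(y, z)`, `y ∉ O₁`, `z ∉ O₂`.
-/

set_option autoImplicit false
set_option linter.unusedSectionVars false

namespace Cfsg.Agent.R2.M7.T1

open Geo Elem Ark T0

variable {G : Type*} [Group G] [Finite G] {Γ : Geo G}

/-- the situation of this file -/
structure Pre (Γ : Geo G) (T Z : Subgroup G) (z y : G) (O₁ O₂ : Subgroup G) : Prop where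
  F : Γ.Facts
  S : Γ.Sit T Z
  hz : Max Γ Z z
  hy : Max Γ Z y
  zy : y ∉ Γ.QQ z
  hO₁ : O₁ ∈ Γ.Ark
  hO₂ : O₂ ∈ Γ.Ark
  z_mem : z ∈ O₁
  y_mem : y ∈ O₂
  y_KK : y ∈ Γ.KK O₁ z
  z_KK : z ∈ Γ.KK O₂ y
  y_not : y ∉ O₁
  z_not : z ∉ O₂

namespace Pre

variable {T Z : Subgroup G} {z y : G} {O₁ O₂ : Subgroup G} (h : Pre Γ T Z z y O₁ O₂)
include h

theorem yz : z ∉ Γ.QQ y := fun h' => h.zy (h.F.basic.symm y h.hy.pt z h.hz.pt h')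

theorem symm : Pre Γ T Z y z O₂ O₁ :=
  ⟨h.F, h.S, h.hy, h.hz, h.yz, h.hO₂, h.hO₁, h.y_mem, h.z_mem, h.z_KK, h.y_KK, h.z_not, h.y_not⟩

/-- the common neighbours of `z` and `y` -/
theorem exists_V : ∃ V X : Subgroup G, (∀ v, v ∈ V ↔ v ∈ Γ.Vs O₁ y) ∧ X ≤ V ∧
    (∀ a ∈ V, ∀ b ∈ V, a ∉ X → b ∉ X → a⁻¹ * b ∈ X) ∧ Nat.card X = 16 ∧
    ∀ q, q ∈ X ↔ q = 1 ∨ (q ∈ Γ.Pt ∧ q ∈ Γ.QQ z ∧ q ∈ Γ.QQ y) := by
  have B := h.F.basic
  have A := h.F.ark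
  obtain ⟨V, hV, hVO, hV1, hV2, hV3⟩ := Ark.exists_V B A h.hO₁ h.y_not
  have hcard : Nat.card V = 32 := by
    rw [ncard_eq V hV]
    exact V_card' B A h.hO₁ h.z_mem h.hz.pt h.y_KK (h.S.sq y h.hy.mem) h.y_not
  obtain ⟨R, hR, hRV, hR2⟩ := exists_R B A h.hO₁ (s := y) hVO (fun q hq hq1 => (hV1 q hq hq1).1) hV3
    (fun q hq hq1 => (hV1 q hq hq1).2)
  have hzV : z ∈ V := hV2 z h.z_mem h.hz.pt h.y_KK
  have hzR : z ∉ R := by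
    intro hcon
    rcases ((hR z).1 hcon).2 with h1 | h1
    · exact B.pt_ne z h.hz.pt h1
    · exact h.zy h1
  have h1 := le_two hR2
  rw [inf_eq_right.2 hRV] at h1
  have h2 := two_mul_le' hRV hzV hzR
  refine ⟨V, R, hV, hRV, hR2, by omega, ?_⟩
  intro q
  rw [hR]
  constructor
  · rintro ⟨hq, hq'⟩
    by_cases hq1 : q = 1
    · exact Or.inl hq1
    · right
      have h3 := (hV1 q hq hq1).1
      exact ⟨h3, hV3 z hzV (B.pt_ne z h.hz.pt) q hq, B.symm q h3 y h.hy.pt (hq'.resolve_left hq1)⟩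
  · rintro (rfl | ⟨h3, h4, h5⟩)
    · exact ⟨V.one_mem, Or.inl rfl⟩
    · have h6 : y ∈ Γ.QQ q := B.symm y h.hy.pt q h3 h5
      have h7 : q ∈ O₁ := A.pt_mem O₁ h.hO₁ z h.z_mem h.hz.pt y h.y_KK h.zy q h3 h4 h6
      exact ⟨hV2 q h7 h3 (KK_of' (KK_le_CC A h.hO₁ h.y_KK) h6), Or.inr h6⟩

end Pre

/-- the situation of this file -/
structure Cfg (Γ : Geo G) (T Z : Subgroup G) (z y : G) (O₁ O₂ X : Subgroup G) : Prop extends
    Pre Γ T Z z y O₁ O₂ where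
  card_X : Nat.card X = 16
  X_iff : ∀ q, q ∈ X ↔ q = 1 ∨ (q ∈ Γ.Pt ∧ q ∈ Γ.QQ z ∧ q ∈ Γ.QQ y)

namespace Cfg

variable {T Z : Subgroup G} {z y : G} {O₁ O₂ X : Subgroup G} (h : Cfg Γ T Z z y O₁ O₂ X)
include h

theorem symm : Cfg Γ T Z y z O₂ O₁ X where
  toPre := h.toPre.symm
  card_X := h.card_X
  X_iff := by
    intro q
    rw [h.X_iff]
    tauto

theorem X_pt {q : G} (hq : q ∈ X) (hq1 : q ≠ 1) : q ∈ Γ.Pt := (((h.X_iff q).1 hq).resolve_left hq1).1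

theorem X_z {q : G} (hq : q ∈ X) : q ∈ Γ.QQ z := by
  rcases (h.X_iff q).1 hq with rfl | h1
  · exact Subgroup.one_mem _
  · exact h1.2.1

theorem X_y {q : G} (hq : q ∈ X) : q ∈ Γ.QQ y := h.symm.X_z hq

theorem z_X {q : G} (hq : q ∈ X) (hq1 : q ≠ 1) : z ∈ Γ.QQ q :=
  h.F.basic.symm z h.hz.pt q (h.X_pt hq hq1) (h.X_z hq)

theorem y_X {q : G} (hq : q ∈ X) (hq1 : q ≠ 1) : y ∈ Γ.QQ q := h.symm.z_X hq hq1

theorem y_C : y ∈ CC O₁ := KK_le_CC h.F.ark h.hO₁ h.y_KK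

theorem z_C : z ∈ CC O₂ := h.symm.y_C

theorem X_le₁ : X ≤ O₁ := by
  intro q hq
  rcases (h.X_iff q).1 hq with rfl | ⟨h1, h2, h3⟩
  · exact O₁.one_mem
  · exact h.F.ark.pt_mem O₁ h.hO₁ z h.z_mem h.hz.pt y h.y_KK h.zy q h1 h2 (h.F.basic.symm y h.hy.pt q h1 h3)

theorem X_le₂ : X ≤ O₂ := h.symm.X_le₁

theorem X_coll {q : G} (hq : q ∈ X) (hq1 : q ≠ 1) {q' : G} (hq' : q' ∈ X) : q' ∈ Γ.QQ q := by
  by_cases hq1' : q' = 1
  · rw [hq1']; exact Subgroup.one_mem _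
  · exact coll_of_KK h.F.basic h.F.ark h.hO₁ (h.X_le₁ hq) (h.X_le₁ hq') (h.X_pt hq hq1) (h.X_pt hq' hq1')
      (KK_of' h.y_C (h.y_X hq hq1)) (KK_of' h.y_C (h.y_X hq' hq1')) h.y_not

theorem ne₁₂ : O₁ ≠ O₂ := fun h' => h.y_not (by rw [h']; exact h.y_mem)

theorem adj : Γ.Adj O₁ O₂ X := ⟨h.hO₁, h.hO₂, h.ne₁₂, h.X_le₁, h.X_le₂, h.card_X, fun _ hq hq1 => h.X_pt hq hq1⟩

/-- (J1) -/
theorem comm₁₂ {a b : G} (ha : a ∈ O₁) (hb : b ∈ O₂) : a * b = b * a := h.F.two.comm O₁ O₂ X h.adj a ha b hb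

theorem cent₁ {x : G} (hx : x ∈ Z) (hxz : x ∈ Γ.QQ z) : x ∈ CC O₁ :=
  h.F.ark.cent_le O₁ h.hO₁ z h.z_mem h.hz.pt y h.y_KK h.zy x hxz (h.S.ab x hx y h.hy.mem)

theorem norm₁ {g : G} (hgz : g * z = z * g) (hgy : g * y = y * g) : cj g O₁ = O₁ :=
  norm_of h.F.basic h.F.ark h.hO₁ h.z_mem h.hz.pt h.y_KK h.zy hgz hgy

theorem norm₁T {t : G} (ht : t ∈ T) : cj t O₁ = O₁ := h.norm₁ (h.S.comm z h.hz.mem t ht) (h.S.comm y h.hy.mem t ht)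

/-- (J2') -/
theorem J2 {s q : G} (hsz : s ∈ Γ.QQ z) (hs₁ : s ∈ CC O₁) (hs₂ : s ∈ CC O₂) (hq : q ∈ X) (hq1 : q ≠ 1) :
    s ∈ Γ.KK O₁ q := by
  have B := h.F.basic
  have A := h.F.ark
  have hqp := h.X_pt hq hq1
  obtain ⟨r, hr, a, ha, b, hb, rfl⟩ := h.F.two.cent O₁ O₂ X h.adj q hq hq1 s hs₁ hs₂
  have hqz : z ≠ q := by
    rintro rfl
    exact h.yz (h.X_y hq)
  -- we may assume `a ∈ QQ z`
  have key : ∀ r a : G, r ∈ Γ.QQ q → a ∈ O₁ → a ∈ Γ.QQ z → r * a * b ∈ Γ.QQ z → r * a * b ∈ CC O₁ →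
      r * a * b ∈ CC O₂ → r * a * b ∈ Γ.KK O₁ q := by
    intro r a hr ha haz h1 h2 h3
    have hab := h.comm₁₂ ha hb
    have e : r * a * b = r * b * a := by rw [mul_assoc, hab, mul_assoc]
    rw [e] at h1 h2 h3 ⊢
    have haC : a ∈ CC O₁ := O_le_CC A h.hO₁ ha
    have haC₂ : a ∈ CC O₂ := mem_CC.2 fun c hc => (h.comm₁₂ ha hc).symm
    have k1 : r * b ∈ CC O₁ := (Subgroup.mul_mem_cancel_right _ haC).1 h2
    have k2 : r * b ∈ CC O₂ := (Subgroup.mul_mem_cancel_right _ haC₂).1 h3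
    have k3 : r * b ∈ Γ.QQ z := (Subgroup.mul_mem_cancel_right _ haz).1 h1
    by_cases hbq : b ∈ Γ.QQ q
    · exact KK_of k1 (Subgroup.mul_mem _ hr hbq) ha
    · exfalso
      apply h.z_not
      have hrC : r ∈ CC O₂ := (Subgroup.mul_mem_cancel_right _ (O_le_CC A h.hO₂ hb)).1 k2
      refine A.pt_mem O₂ h.hO₂ q (h.X_le₂ hq) hqp (r * b) (KK_of hrC hr hb) ?_ z h.hz.pt (h.z_X hq hq1) k3
      intro h'
      exact hbq ((Subgroup.mul_mem_cancel_left _ hr).1 h')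
  by_cases haz : a ∈ Γ.QQ z
  · exact key r a hr ha haz hsz hs₁ hs₂
  · obtain ⟨c, hc, hcq, hcz⟩ := exists_sep A h.hO₁ h.z_mem (h.X_le₁ hq) (B.pt_ne z h.hz.pt) hqz
    have hcz' : c ∉ Γ.QQ z := (not_mem_QQ A h.hO₁ h.z_mem h.hz.pt hc).2 hcz
    have hcq' : c ∈ Γ.QQ q := (A.bet_iff O₁ h.hO₁ q (h.X_le₁ hq) hqp c hc).2 hcq
    have e : r * a * b = r * c * (c * a) * b := by
      calc r * a * b = r * (c * c) * a * b := by rw [A.sq O₁ h.hO₁ c hc, mul_one]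
        _ = _ := by group
    rw [e] at hsz hs₁ hs₂ ⊢
    exact key (r * c) (c * a) (Subgroup.mul_mem _ hr hcq') (O₁.mul_mem hc ha)
      (mul_mem_QQ A h.hO₁ h.z_mem h.hz.pt hc ha hcz' haz) hsz hs₁ hs₂

/-- `Z_z ∩ Z_y ≤ QQ q` -/
theorem DQ {s q : G} (hs : s ∈ Z) (hsz : s ∈ Γ.QQ z) (hsy : s ∈ Γ.QQ y) (hq : q ∈ X) (hq1 : q ≠ 1) : s ∈ Γ.QQ q := by
  by_contra hcon
  have h1 := h.cent₁ hs hsz
  have h2 := h.symm.cent₁ hs hsy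
  exact h.ne₁₂ (h.F.ark.unique O₁ h.hO₁ O₂ h.hO₂ q (h.X_pt hq hq1) (h.X_le₁ hq) (h.X_le₂ hq) s
    (h.J2 hsz h1 h2 hq hq1) (h.symm.J2 hsy h2 h1 hq hq1) hcon)

theorem X_inv {t q : G} (htz : t * z = z * t) (hty : t * y = y * t) (hq : q ∈ X) : t * q * t⁻¹ ∈ X := by
  have B := h.F.basic
  rw [h.X_iff]
  rcases (h.X_iff q).1 hq with rfl | ⟨h1, h2, h3⟩
  · left; group
  · exact Or.inr ⟨B.pt_conj q h1 t, QQ_norm B h.hz.pt htz h2, QQ_norm B h.hy.pt hty h3⟩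

theorem X_invT {t q : G} (ht : t ∈ T) (hq : q ∈ X) : t * q * t⁻¹ ∈ X :=
  h.X_inv (h.S.comm z h.hz.mem t ht) (h.S.comm y h.hy.mem t ht) hq

/-- (M) -/
theorem M {p : G} (hp : p ∈ X) (hpZ : p ∈ Z) (hp1 : p ≠ 1) : ∃ t ∈ Z, t ∈ Γ.QQ z ∧ t ∉ Γ.QQ p := by
  by_contra hcon
  push Not at hcon
  have h1 := two_mul_le' (A := Z ⊓ Γ.QQ z) (B := Z ⊓ Γ.QQ p) (fun x hx => ⟨hx.1, hcon x hx.1 hx.2⟩) (x := y)
    ⟨h.hy.mem, h.y_X hp hp1⟩ fun h' => h.zy h'.2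
  have h2 := h.hz.le p hpZ (h.X_pt hp hp1)
  have h3 : 0 < Nat.card (Z ⊓ Γ.QQ z : Subgroup G) := Nat.card_pos
  omega

/-- `E_s` -/
theorem exists_E {s : G} (hs : s ∈ Z) (hsz : s ∈ Γ.QQ z) : ∃ E : Subgroup G,
    (∀ q, q ∈ E ↔ q ∈ X ∧ (q = 1 ∨ s ∈ Γ.KK O₁ q)) ∧ 4 ≤ Nat.card E := by
  have B := h.F.basic
  have A := h.F.ark
  by_cases hsO : s ∈ O₁
  · refine ⟨X, ?_, by rw [h.card_X]; norm_num⟩
    intro q
    constructor
    · exact fun hq => ⟨hq, Or.inr (O_le_KK hsO)⟩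
    · exact fun hq => hq.1
  · obtain ⟨V, hV, hVO, hV1, hV2, hV3⟩ := Ark.exists_V B A h.hO₁ hsO
    have hsC := h.cent₁ hs hsz
    have hmem : ∀ q, q ∈ V ⊓ X ↔ q ∈ X ∧ (q = 1 ∨ s ∈ Γ.KK O₁ q) := by
      intro q
      constructor
      · rintro ⟨hq, hq'⟩
        refine ⟨hq', ?_⟩
        by_cases hq1 : q = 1
        · exact Or.inl hq1
        · exact Or.inr (hV1 q hq hq1).2
      · rintro ⟨hq, hq'⟩
        refine ⟨?_, hq⟩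
        by_cases hq1 : q = 1
        · rw [hq1]; exact V.one_mem
        · exact hV2 q (h.X_le₁ hq) (h.X_pt hq hq1) (hq'.resolve_left hq1)
    obtain ⟨W, X', hW, hXW, hX2, -, hX'⟩ := h.toPre.exists_V
    have hXX : X' = X := by
      ext q
      rw [hX', h.X_iff]
    subst hXX
    refine ⟨V ⊓ X', hmem, ?_⟩
    by_cases hsy : s * y ∈ O₁
    · have h1 : Γ.Vs O₁ s = Γ.Vs O₁ y := by
        have e : s = y * (s * y) := by
          have h2 := h.S.ab s hs y h.hy.mem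
          calc s = s * (y * y) := by rw [h.S.sq y h.hy.mem, mul_one]
            _ = (s * y) * y := by group
            _ = (y * s) * y := by rw [h2]
            _ = y * (s * y) := by group
        conv_lhs => rw [e]
        exact Vs_mul A h.hO₁ hsy
      have h2 : X' ≤ V := by
        intro q hq
        rw [hV, h1, ← hW]
        exact hXW hq
      rw [inf_eq_right.2 h2, h.card_X]
      norm_num
    · have h1 := V_inter' B A h.hO₁ h.z_mem h.hz.pt (KK_of' hsC hsz) (h.S.sq s hs) hsO h.y_KK (h.S.sq y h.hy.mem) h.y_not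
        (h.S.ab s hs y h.hy.mem) hsy
      have h2 : 8 ≤ Nat.card (V ⊓ W : Subgroup G) := by
        rw [ncard_eq (V ⊓ W) (S := Γ.Vs O₁ s ∩ Γ.Vs O₁ y)]
        · exact h1
        · intro v
          rw [Subgroup.mem_inf, hV, hW]
          rfl
      have h3 : Nat.card (V ⊓ W : Subgroup G) ≤ 2 * Nat.card (V ⊓ W ⊓ X' : Subgroup G) := by
        apply le_two
        intro a ha b hb ha' hb'
        exact hX2 a ha.2 b hb.2 ha' hb'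
      have h4 : Nat.card (V ⊓ W ⊓ X' : Subgroup G) ≤ Nat.card (V ⊓ X' : Subgroup G) :=
        card_le (inf_le_inf_right _ inf_le_left)
      omega

/-- (4) -/
theorem exists_p {s : G} (hs : s ∈ Z) (hsz : s ∈ Γ.QQ z) :
    ∃ p ∈ X, p ≠ 1 ∧ p ∈ Z ∧ s ∈ Γ.KK O₁ p ∧ s ∈ Γ.QQ p := by
  have B := h.F.basic
  have A := h.F.ark
  obtain ⟨E, hE, hEc⟩ := h.exists_E hs hsz
  have hEX : E ≤ X := fun q hq => ((hE q).1 hq).1
  have hEK : ∀ q ∈ E, q ≠ 1 → s ∈ Γ.KK O₁ q := fun q hq hq1 => ((hE q).1 hq).2.resolve_left hq1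
  obtain ⟨R, hR, hRE, hR2⟩ := exists_R B A h.hO₁ (s := s) (X := E) (hEX.trans h.X_le₁)
    (fun q hq hq1 => h.X_pt (hEX hq) hq1) (fun q hq hq1 q' hq' => h.X_coll (hEX hq) hq1 (hEX hq')) hEK
  have h1 := le_two hR2
  rw [inf_eq_right.2 hRE] at h1
  obtain ⟨p, hp, hp1, hpZ⟩ := fix h.S (E := R) (fun a ha => A.sq O₁ h.hO₁ a (h.X_le₁ (hEX (hRE ha)))) (by omega) (by
    intro t ht a ha
    have hts := h.S.comm s hs t ht
    have es : t * s * t⁻¹ = s := by rw [hts]; group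
    rw [hR]
    have ha' := (hR a).1 ha
    refine ⟨?_, ?_⟩
    · rw [hE]
      refine ⟨h.X_invT ht (hEX ha'.1), ?_⟩
      by_cases ha1 : a = 1
      · left; rw [ha1]; group
      · exact Or.inr (norm_KK B A h.hO₁ (h.norm₁T ht) (h.X_pt (hEX ha'.1) ha1) (hEK a ha'.1 ha1) hts)
    · by_cases ha1 : a = 1
      · left; rw [ha1]; group
      · right
        have h2 := B.QQ_conj a (h.X_pt (hEX ha'.1) ha1) t s (ha'.2.resolve_left ha1)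
        rwa [es] at h2)
  exact ⟨p, hEX (hRE hp), hp1, hpZ, hEK p (hRE hp) hp1, ((hR p).1 hp).2.resolve_left hp1⟩

/-- (5) -/
theorem five : 8 * Nat.card (Z ⊓ Γ.QQ z ⊓ Γ.QQ y : Subgroup G) ≤ Nat.card (Z ⊓ Γ.QQ z : Subgroup G) := by
  have B := h.F.basic
  have A := h.F.ark
  obtain ⟨D₁, hD₁, hDD₁, hzD₁, hc1, hc1'⟩ := exists_adj (D := Z ⊓ Γ.QQ z ⊓ Γ.QQ y) (x := z) (h.S.sq z h.hz.mem)
    (fun a ha => h.S.ab z h.hz.mem a ha.1.1)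
  have hc1'' := hc1' fun h' => h.yz h'.2
  have hD₁z : D₁ ≤ Z ⊓ Γ.QQ z := by
    intro a ha
    rcases (hD₁ a).1 ha with h1 | h1
    · exact h1.1
    · exact (Subgroup.mul_mem_cancel_left _ (⟨h.hz.mem, B.QQ_self z h.hz.pt⟩ : z ∈ Z ⊓ Γ.QQ z)).1 h1.1
  have hD₁p : ∀ p ∈ X, p ≠ 1 → D₁ ≤ Γ.QQ p := by
    intro p hp hp1 a ha
    rcases (hD₁ a).1 ha with h1 | h1
    · exact h.DQ h1.1.1 h1.1.2 h1.2 hp hp1
    · exact (Subgroup.mul_mem_cancel_left _ (h.z_X hp hp1)).1 (h.DQ h1.1.1 h1.1.2 h1.2 hp hp1)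
  have hyD : ∀ D' : Subgroup G, D₁ ≤ D' → D' ≤ Z ⊓ Γ.QQ z → ∀ p ∈ X, p ≠ 1 → p ∈ Z → D' ≤ Γ.QQ p →
      2 * Nat.card D' ≤ Nat.card (Z ⊓ Γ.QQ z : Subgroup G) := by
    intro D' _ h2 p hp hp1 hpZ h3
    obtain ⟨D₂, hD₂, hDD₂, hyD₂, hc2, hc2'⟩ := exists_adj (D := D') (x := y) (h.S.sq y h.hy.mem)
      (fun a ha => h.S.ab y h.hy.mem a (h2 ha).1)
    have h4 := hc2' fun h' => h.zy (h2 h').2
    have h5 : D₂ ≤ Z ⊓ Γ.QQ p := by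
      intro a ha
      rcases (hD₂ a).1 ha with h6 | h6
      · exact ⟨(h2 h6).1, h3 h6⟩
      · exact (Subgroup.mul_mem_cancel_left _ (⟨h.hy.mem, h.y_X hp hp1⟩ : y ∈ Z ⊓ Γ.QQ p)).1 ⟨(h2 h6).1, h3 h6⟩
    have h6 := card_le h5
    have h7 := h.hz.le p hpZ (h.X_pt hp hp1)
    omega
  obtain ⟨p, hp, hp1, hpZ, -⟩ := h.exists_p h.hz.mem (B.QQ_self z h.hz.pt)
  have h1 := hyD D₁ le_rfl hD₁z p hp hp1 hpZ (hD₁p p hp hp1)
  have hpos : 0 < Nat.card (Z ⊓ Γ.QQ z ⊓ Γ.QQ y : Subgroup G) := Nat.card_pos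
  have hne : ¬ Z ⊓ Γ.QQ z ≤ D₁ := by
    intro h'
    have := card_le h'
    omega
  obtain ⟨s, hs, hsD⟩ := Set.not_subset.1 hne
  obtain ⟨p', hp', hp1', hpZ', -, hsp'⟩ := h.exists_p hs.1 hs.2
  obtain ⟨D₂, hD₂, hDD₂, hsD₂, hc2, hc2'⟩ := exists_adj (D := D₁) (x := s) (h.S.sq s hs.1)
    (fun a ha => h.S.ab s hs.1 a (hD₁z ha).1)
  have h2 := hc2' hsD
  have h3 := hyD D₂ hDD₂ (by
    intro a ha
    rcases (hD₂ a).1 ha with h6 | h6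
    · exact hD₁z h6
    · exact (Subgroup.mul_mem_cancel_left _ hs).1 (hD₁z h6)) p' hp' hp1' hpZ' (by
    intro a ha
    rcases (hD₂ a).1 ha with h6 | h6
    · exact hD₁p p' hp' hp1' h6
    · exact (Subgroup.mul_mem_cancel_left _ hsp').1 (hD₁p p' hp' hp1' h6))
  omega

/-- (6) -/
theorem six {p : G} (hp : p ∈ X) (hpZ : p ∈ Z) (hp1 : p ≠ 1) (h1 : ∀ s ∈ Z, s ∈ Γ.QQ z → s ∈ Γ.KK O₁ p)
    (h2 : ∀ s ∈ Z, s ∈ Γ.QQ y → s ∈ Γ.KK O₂ p) : False := by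
  have B := h.F.basic
  have A := h.F.ark
  have hpp := h.X_pt hp hp1
  have k1 : Nat.card (Z ⊓ Γ.QQ z : Subgroup G) ≤ 2 * Nat.card (Z ⊓ Γ.QQ z ⊓ Γ.QQ p : Subgroup G) := by
    apply le_two
    intro a ha b hb ha' hb'
    exact KK_two A h.hO₁ (h.X_le₁ hp) hpp (h1 a ha.1 ha.2) (h1 b hb.1 hb.2) ha' hb'
  have k2 : Nat.card (Z ⊓ Γ.QQ y : Subgroup G) ≤ 2 * Nat.card (Z ⊓ Γ.QQ y ⊓ Γ.QQ p : Subgroup G) := by
    apply le_two
    intro a ha b hb ha' hb'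
    exact KK_two A h.hO₂ (h.X_le₂ hp) hpp (h2 a ha.1 ha.2) (h2 b hb.1 hb.2) ha' hb'
  have k3 : Nat.card (Z ⊓ Γ.QQ z ⊓ Γ.QQ p : Subgroup G) * Nat.card (Z ⊓ Γ.QQ y ⊓ Γ.QQ p : Subgroup G) ≤
      Nat.card (Z ⊓ Γ.QQ p : Subgroup G) *
        Nat.card ((Z ⊓ Γ.QQ z ⊓ Γ.QQ p) ⊓ (Z ⊓ Γ.QQ y ⊓ Γ.QQ p) : Subgroup G) :=
    mul_le (inf_le_inf_right _ inf_le_left) (inf_le_inf_right _ inf_le_left)
  have k4 : Nat.card ((Z ⊓ Γ.QQ z ⊓ Γ.QQ p) ⊓ (Z ⊓ Γ.QQ y ⊓ Γ.QQ p) : Subgroup G) ≤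
      Nat.card (Z ⊓ Γ.QQ z ⊓ Γ.QQ y : Subgroup G) := card_le fun x hx => ⟨hx.1.1, hx.2.1.2⟩
  have k5 := h.hz.le p hpZ hpp
  have k6 := h.five
  have k7 := h.hz.eq h.hy
  have hpos : 0 < Nat.card (Z ⊓ Γ.QQ z ⊓ Γ.QQ y : Subgroup G) := Nat.card_pos
  rw [← k7] at k2
  have k8 := Nat.mul_le_mul k5 k4
  have k9 := k3.trans k8
  generalize Nat.card (Z ⊓ Γ.QQ z : Subgroup G) = m at *
  generalize Nat.card (Z ⊓ Γ.QQ z ⊓ Γ.QQ p : Subgroup G) = a at *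
  generalize Nat.card (Z ⊓ Γ.QQ y ⊓ Γ.QQ p : Subgroup G) = b at *
  generalize Nat.card (Z ⊓ Γ.QQ z ⊓ Γ.QQ y : Subgroup G) = d at *
  have k10 : m * m ≤ 4 * (a * b) := by nlinarith
  have k11 : m * m ≤ m * (4 * d) := by nlinarith
  have hm : 0 < m := by omega
  have k12 := Nat.le_of_mul_le_mul_left k11 hm
  omega

/-- (8) -/
theorem eight : ∃ s ∈ Z, s ∈ Γ.QQ z ∧ s ∉ CC O₂ := by
  have B := h.F.basic
  have A := h.F.ark
  by_contra hcon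
  push Not at hcon
  have h1 : ∀ s ∈ Z, s ∈ Γ.QQ z → ∀ q ∈ X, q ≠ 1 → s ∈ Γ.KK O₁ q := fun s hs hsz q hq hq1 =>
    h.J2 hsz (h.cent₁ hs hsz) (hcon s hs hsz) hq hq1
  by_cases h2 : ∀ s ∈ Z, s ∈ Γ.QQ y → s ∈ CC O₁
  · obtain ⟨p, hp, hp1, hpZ, -⟩ := h.exists_p h.hz.mem (B.QQ_self z h.hz.pt)
    exact h.six hp hpZ hp1 (fun s hs hsz => h1 s hs hsz p hp hp1) fun s hs hsy =>
      h.symm.J2 hsy (h.symm.cent₁ hs hsy) (h2 s hs hsy) hp hp1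
  · push Not at h2
    obtain ⟨s, hs, hsy, hsC⟩ := h2
    obtain ⟨p, hp, hp1, hpZ, -, hsp⟩ := h.symm.exists_p hs hsy
    obtain ⟨t, ht, htz, htp⟩ := h.M hp hpZ hp1
    exact hsC (A.cent_le O₁ h.hO₁ p (h.X_le₁ hp) (h.X_pt hp hp1) t (h1 t ht htz p hp hp1) htp s hsp
      (h.S.ab s hs t ht))

/-! ### (9) -/

/-- the commutator -/
theorem com_mem {s u : G} (hs : s ∈ Z) (hu : u ∈ O₂) : s * u * s⁻¹ * u⁻¹ ∈ O₂ :=
  O₂.mul_mem (norm_mem h.F.ark h.hO₂ (h.symm.norm₁ (h.S.ab s hs y h.hy.mem) (h.S.ab s hs z h.hz.mem)) hu)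
    (O₂.inv_mem hu)

theorem com_mul {s u v : G} (hs : s ∈ Z) (hu : u ∈ O₂) (hv : v ∈ O₂) :
    s * (u * v) * s⁻¹ * (u * v)⁻¹ = (s * u * s⁻¹ * u⁻¹) * (s * v * s⁻¹ * v⁻¹) := by
  have h1 := h.F.ark.comm O₂ h.hO₂ _ (h.com_mem hs hv) _ (O₂.inv_mem hu)
  calc s * (u * v) * s⁻¹ * (u * v)⁻¹ = (s * u * s⁻¹) * ((s * v * s⁻¹ * v⁻¹) * u⁻¹) := by group
    _ = (s * u * s⁻¹) * (u⁻¹ * (s * v * s⁻¹ * v⁻¹)) := by rw [h1]
    _ = _ := by group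

theorem com_q {s u q : G} (hq : q ∈ X) (hq1 : q ≠ 1) (hsq : s ∈ Γ.KK O₁ q) (hu : u ∈ O₂) (huq : u ∈ Γ.QQ q) :
    s * u * s⁻¹ * u⁻¹ = 1 ∨ s * u * s⁻¹ * u⁻¹ = q := by
  obtain ⟨r, hr, hr', a, ha, rfl⟩ := mem_KK hsq
  have h1 := h.comm₁₂ ha hu
  have e : r * a * u * (r * a)⁻¹ * u⁻¹ = r * u * r⁻¹ * u⁻¹ := by
    calc r * a * u * (r * a)⁻¹ * u⁻¹ = r * (a * u) * a⁻¹ * r⁻¹ * u⁻¹ := by group
      _ = r * (u * a) * a⁻¹ * r⁻¹ * u⁻¹ := by rw [h1]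
      _ = _ := by group
  rw [e]
  exact h.F.basic.QQ_der q (h.X_pt hq hq1) r hr' u huq

/-- the group `E_s` for `s ∈ Z_z ∖ CC O₂` -/
structure Es (Γ : Geo G) (O₁ O₂ X : Subgroup G) (s : G) (E : Subgroup G) : Prop where
  iff : ∀ q, q ∈ E ↔ q ∈ X ∧ (q = 1 ∨ s ∈ Γ.KK O₁ q)
  card : Nat.card E = 4
  com : ∀ u ∈ O₂, s * u * s⁻¹ * u⁻¹ ∈ E
  orth : ∀ x ∈ O₂, s * x = x * s → ∀ q ∈ E, q ≠ 1 → x ∈ Γ.QQ q

/-- (9) -/
theorem nine {s : G} (hs : s ∈ Z) (hsz : s ∈ Γ.QQ z) (hsC : s ∉ CC O₂) : ∃ E, Es Γ O₁ O₂ X s E := by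
  have B := h.F.basic
  have A := h.F.ark
  obtain ⟨E, hE, hEc⟩ := h.exists_E hs hsz
  have hEX : E ≤ X := fun q hq => ((hE q).1 hq).1
  have hEO : E ≤ O₂ := hEX.trans h.X_le₂
  have hEK : ∀ q ∈ E, q ≠ 1 → s ∈ Γ.KK O₁ q := fun q hq hq1 => ((hE q).1 hq).2.resolve_left hq1
  have hsq : ∀ q ∈ E, q * q = 1 := fun q hq => A.sq O₂ h.hO₂ q (hEO hq)
  -- commutators
  have c1 : ∀ q ∈ E, q ≠ 1 → ∀ u ∈ O₂, u ∈ Γ.QQ q → s * u * s⁻¹ * u⁻¹ = 1 ∨ s * u * s⁻¹ * u⁻¹ = q :=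
    fun q hq hq1 u hu huq => h.com_q (hEX hq) hq1 (hEK q hq hq1) hu huq
  have c2 : ∀ q ∈ E, q ≠ 1 → ∀ q' ∈ E, q' ≠ 1 → q ≠ q' → ∀ u ∈ O₂, ∃ u₁ ∈ O₂, u₁ ∈ Γ.QQ q ∧ ∃ u₂ ∈ O₂, u₂ ∈ Γ.QQ q' ∧
      s * u * s⁻¹ * u⁻¹ = (s * u₁ * s⁻¹ * u₁⁻¹) * (s * u₂ * s⁻¹ * u₂⁻¹) := by
    intro q hq hq1 q' hq' hq1' hne u hu
    obtain ⟨u₁, hu₁, hu₁', u₂, hu₂, hu₂', rfl⟩ := exists_split A h.hO₂ (hEO hq) (hEO hq') (h.X_pt (hEX hq) hq1)
      (h.X_pt (hEX hq') hq1') hq1 hne hu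
    exact ⟨u₁, hu₁, hu₁', u₂, hu₂, hu₂', h.com_mul hs hu₁ hu₂⟩
  have hmulne : ∀ a ∈ E, ∀ b ∈ E, a ≠ b → a * b ≠ 1 := by
    intro a ha b hb hab h'
    apply hab
    have : a = b⁻¹ := eq_inv_of_mul_eq_one_left h'
    rw [this]
    exact inv_eq_of_mul_eq_one_right (hsq b hb)
  -- a nontrivial commutator
  obtain ⟨u, hu, hu1⟩ : ∃ u ∈ O₂, s * u * s⁻¹ * u⁻¹ ≠ 1 := by
    by_contra hcon
    push Not at hcon
    apply hsC
    rw [mem_CC]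
    intro a ha
    have h1 := hcon a ha
    calc a * s = (s * a * s⁻¹ * a⁻¹) * a * s := by rw [h1, one_mul]
      _ = s * a := by group
  have hcomE : ∀ u ∈ O₂, s * u * s⁻¹ * u⁻¹ ∈ E := by
    intro u hu
    obtain ⟨q, hq, hq1⟩ := exists_ne_one (E := E) (by omega)
    have h2 : ∃ q' ∈ E, q' ≠ 1 ∧ q ≠ q' := by
      by_contra hcon
      push Not at hcon
      obtain ⟨D, hD, -, -, hDc, -⟩ := exists_adj (D := (⊥ : Subgroup G)) (x := q) (hsq q hq) (by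
        intro a ha
        rw [Subgroup.mem_bot.1 ha, mul_one, one_mul])
      have h3 : E ≤ D := by
        intro x hx
        rw [hD]
        by_cases hx1 : x = 1
        · left; rw [hx1]; exact Subgroup.one_mem _
        · right
          rw [← hcon x hx hx1, hsq q hq]
          exact Subgroup.one_mem _
      have h4 := card_le h3
      rw [Subgroup.card_bot] at hDc
      omega
    obtain ⟨q', hq', hq1', hne⟩ := h2
    obtain ⟨u₁, hu₁, hu₁', u₂, hu₂, hu₂', h3⟩ := c2 q hq hq1 q' hq' hq1' hne u hu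
    rw [h3]
    apply E.mul_mem
    · rcases c1 q hq hq1 u₁ hu₁ hu₁' with h4 | h4 <;> rw [h4]
      · exact E.one_mem
      · exact hq
    · rcases c1 q' hq' hq1' u₂ hu₂ hu₂' with h4 | h4 <;> rw [h4]
      · exact E.one_mem
      · exact hq'
  obtain ⟨e, he⟩ : ∃ e, e = s * u * s⁻¹ * u⁻¹ := ⟨_, rfl⟩
  have heE : e ∈ E := by rw [he]; exact hcomE u hu
  have he1 : e ≠ 1 := by rw [he]; exact hu1
  rw [← he] at hu1
  -- all values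
  have c3 : ∀ q ∈ E, q ≠ 1 → ∃ v ∈ O₂, s * v * s⁻¹ * v⁻¹ = q := by
    intro q hq hq1
    by_cases hqe : q = e
    · exact ⟨u, hu, by rw [hqe, he]⟩
    · have h1 := hmulne q hq e heE hqe
      have hne : q ≠ q * e := fun h' => he1 (by
        have h2 : q * 1 = q * e := by rw [mul_one]; exact h'
        exact (mul_left_cancel h2).symm)
      obtain ⟨u₁, hu₁, hu₁', u₂, hu₂, hu₂', h3⟩ := c2 q hq hq1 (q * e) (E.mul_mem hq heE) h1 hne u hu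
      rcases c1 q hq hq1 u₁ hu₁ hu₁' with h4 | h4
      · exfalso
        rw [← he, h4, one_mul] at h3
        rcases c1 (q * e) (E.mul_mem hq heE) h1 u₂ hu₂ hu₂' with h5 | h5
        · rw [h5] at h3; exact he1 h3
        · rw [h5] at h3
          apply hq1
          have h6 : q * e = 1 * e := by rw [one_mul]; exact h3.symm
          exact mul_right_cancel h6
      · exact ⟨u₁, hu₁, h4⟩
  -- the order
  have hcard : Nat.card E ≤ 4 := by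
    obtain ⟨D, hD, -, -, hDc, -⟩ := exists_adj (D := (⊥ : Subgroup G)) (x := e) (hsq e heE) (by
      intro a ha
      rw [Subgroup.mem_bot.1 ha, mul_one, one_mul])
    rw [Subgroup.card_bot] at hDc
    have hDE : D ≤ E := by
      intro a ha
      rcases (hD a).1 ha with h1 | h1
      · rw [Subgroup.mem_bot.1 h1]; exact E.one_mem
      · exact (Subgroup.mul_mem_cancel_left _ heE).1 (by rw [Subgroup.mem_bot.1 h1]; exact E.one_mem)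
    have h1 : Nat.card E ≤ 2 * Nat.card (E ⊓ D : Subgroup G) := by
      apply le_two
      intro a ha b hb ha' hb'
      by_contra hcon
      have ha1 : a ≠ 1 := fun h' => ha' (by rw [h']; exact D.one_mem)
      have hb1 : b ≠ 1 := fun h' => hb' (by rw [h']; exact D.one_mem)
      have hae : a ≠ e := fun h' => ha' (by rw [h', hD]; right; rw [hsq e heE]; exact Subgroup.one_mem _)
      have hbe : b ≠ e := fun h' => hb' (by rw [h', hD]; right; rw [hsq e heE]; exact Subgroup.one_mem _)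
      have hinv : a⁻¹ = a := inv_eq_of_mul_eq_one_right (hsq a ha)
      rw [hinv, hD] at hcon
      push Not at hcon
      have hab : a ≠ b := by
        rintro rfl
        apply hcon.1
        rw [hsq a ha]
        exact Subgroup.one_mem _
      have habe : a * b ≠ e := by
        intro h'
        apply hcon.2
        rw [h', hsq e heE]
        exact Subgroup.one_mem _
      obtain ⟨u₁, hu₁, hu₁', u₂, hu₂, hu₂', h3⟩ := c2 a ha ha1 b hb hb1 hab u hu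
      rw [← he] at h3
      rcases c1 a ha ha1 u₁ hu₁ hu₁' with h4 | h4 <;> rcases c1 b hb hb1 u₂ hu₂ hu₂' with h5 | h5 <;> rw [h4, h5] at h3
      · rw [one_mul] at h3; exact he1 h3
      · rw [one_mul] at h3; exact hbe h3.symm
      · rw [mul_one] at h3; exact hae h3.symm
      · exact habe h3.symm
    rw [inf_eq_right.2 hDE] at h1
    omega
  refine ⟨E, hE, le_antisymm hcard hEc, hcomE, ?_⟩
  intro x hx hsx q hq hq1
  obtain ⟨v, hv, rfl⟩ := c3 q hq hq1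
  have hqp := h.X_pt (hEX hq) hq1
  have hn : s * v * s⁻¹ ∈ O₂ := norm_mem A h.hO₂ (h.symm.norm₁ (h.S.ab s hs y h.hy.mem) (h.S.ab s hs z h.hz.mem)) hv
  have e1 : s * x * s⁻¹ = x := by rw [hsx]; group
  have h1 : Γ.bet x (s * v * s⁻¹) = Γ.bet x v := by
    conv_lhs => rw [← e1]
    exact bet_conj B x v s
  rw [A.bet_iff O₂ h.hO₂ _ (hEO hq) hqp x hx, bet_mul_right A h.hO₂ hx hn (O₂.inv_mem hv), inv_eq A h.hO₂ hv, h1,
    add_self]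

/-- (10) -/
theorem ten {s : G} (hs : s ∈ Z) {E : Subgroup G} (hE : Es Γ O₁ O₂ X s E) {s' : G}
    (hs' : s' ∈ Z) (hsy' : s' ∈ Γ.QQ y) : ∃ q ∈ E, q ≠ 1 ∧ s' ∈ Γ.KK O₂ q := by
  have B := h.F.basic
  have A := h.F.ark
  have hEX : E ≤ X := fun q hq => ((hE.iff q).1 hq).1
  have hEO : E ≤ O₂ := hEX.trans h.X_le₂
  by_cases hsO : s' ∈ O₂
  · obtain ⟨q, hq, hq1⟩ := exists_ne_one (E := E) (by rw [hE.card]; norm_num)
    exact ⟨q, hq, hq1, O_le_KK hsO⟩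
  by_contra hcon
  push Not at hcon
  obtain ⟨V, hV, hVO, hV1, hV2, hV3⟩ := Ark.exists_V B A h.hO₂ hsO
  have hsC := h.symm.cent₁ hs' hsy'
  have hVc : Nat.card V = 32 := by
    rw [ncard_eq V hV]
    exact V_card' B A h.hO₂ h.y_mem h.hy.pt (KK_of' hsC hsy') (h.S.sq s' hs') hsO
  have hVE : ∀ v ∈ V, v ∈ E → v = 1 := by
    intro v hv hvE
    by_contra hv1
    exact hcon v hvE hv1 (hV1 v hv hv1).2
  have hnorm := h.symm.norm₁ (h.S.ab s hs y h.hy.mem) (h.S.ab s hs z h.hz.mem)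
  have hcomm : ∀ v ∈ V, s * v = v * s := by
    intro v hv
    have h1 : s * v * s⁻¹ ∈ V := by
      rw [hV]
      exact norm_Vs B A h.hO₂ hnorm (h.S.ab s hs s' hs') ((hV v).1 hv)
    have h2 := hVE _ (V.mul_mem h1 (V.inv_mem hv)) (hE.com v (hVO hv))
    calc s * v = (s * v * s⁻¹ * v⁻¹) * v * s := by group
      _ = v * s := by rw [h2, one_mul]
  have hperp : ∀ v ∈ V, ∀ q ∈ E, q ≠ 1 → v ∈ Γ.QQ q := fun v hv q hq hq1 => hE.orth v (hVO hv) (hcomm v hv) q hq hq1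
  have h1 : Nat.card (V ⊔ E : Subgroup G) ≤ 32 := by
    apply A.ts_card O₂ h.hO₂ _ (sup_le hVO hEO)
    intro x hx hx1
    obtain ⟨v, hv, q, hq, rfl⟩ := Elem.mem_sup (fun a ha b hb => A.comm O₂ h.hO₂ a (hVO ha) b (hEO hb)) hx
    by_cases hq1 : q = 1
    · subst hq1
      rw [mul_one] at hx1 ⊢
      exact (hV1 v hv hx1).1
    · by_cases hv1 : v = 1
      · subst hv1
        rw [one_mul] at hx1 ⊢
        exact h.X_pt (hEX hq) hx1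
      · rw [A.comm O₂ h.hO₂ v (hVO hv) q (hEO hq)] at hx1 ⊢
        exact (line_mem B (h.X_pt (hEX hq) hq1) (hV1 v hv hv1).1 (hperp v hv q hq hq1)).resolve_left hx1
  have h2 : Nat.card V * Nat.card E ≤ Nat.card (V ⊔ E : Subgroup G) * Nat.card (V ⊓ E : Subgroup G) :=
    mul_le le_sup_left le_sup_right
  have h3 : V ⊓ E = ⊥ := by
    rw [Subgroup.eq_bot_iff_forall]
    exact fun x hx => hVE x hx.1 hx.2
  rw [h3, Subgroup.card_bot, hVc, hE.card] at h2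
  omega

/-- (11) -/
theorem eleven {s : G} (hs : s ∈ Z) (hsz : s ∈ Γ.QQ z) (hsC : s ∉ CC O₂) {E : Subgroup G} (hE : Es Γ O₁ O₂ X s E) :
    ∃ l ∈ E, l ≠ 1 ∧ ∀ s' ∈ Z, s' ∈ Γ.QQ y → s' ∈ Γ.KK O₂ l := by
  have B := h.F.basic
  have A := h.F.ark
  have hEX : E ≤ X := fun q hq => ((hE.iff q).1 hq).1
  have hEO : E ≤ O₂ := hEX.trans h.X_le₂
  obtain ⟨p, hp, hp1, hpZ, hsKp, hsp⟩ := h.exists_p hs hsz
  have hpE : p ∈ E := (hE.iff p).2 ⟨hp, Or.inr hsKp⟩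
  have hpp := h.X_pt hp hp1
  -- the index of `Z_y ∩ QQ p` in `Z_y`
  have k1 : 4 * Nat.card (Z ⊓ Γ.QQ y ⊓ Γ.QQ p : Subgroup G) ≤ Nat.card (Z ⊓ Γ.QQ y : Subgroup G) := by
    obtain ⟨D₁, hD₁, hDD₁, hzD₁, -, hc1⟩ := exists_adj (D := Z ⊓ Γ.QQ y ⊓ Γ.QQ p) (x := z) (h.S.sq z h.hz.mem)
      (fun a ha => h.S.ab z h.hz.mem a ha.1.1)
    have hc1' := hc1 fun h' => h.yz h'.1.2
    have hD₁p : D₁ ≤ Z ⊓ Γ.QQ p := by
      intro a ha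
      rcases (hD₁ a).1 ha with h1 | h1
      · exact ⟨h1.1.1, h1.2⟩
      · exact (Subgroup.mul_mem_cancel_left _ (⟨h.hz.mem, h.z_X hp hp1⟩ : z ∈ Z ⊓ Γ.QQ p)).1 ⟨h1.1.1, h1.2⟩
    obtain ⟨D₂, hD₂, hDD₂, hsD₂, -, hc2⟩ := exists_adj (D := D₁) (x := s) (h.S.sq s hs)
      (fun a ha => h.S.ab s hs a (hD₁p ha).1)
    have hc2' := hc2 (by
      intro h'
      apply hsC
      rcases (hD₁ s).1 h' with h1 | h1
      · exact h.symm.cent₁ h1.1.1 h1.1.2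
      · exact (Subgroup.mul_mem_cancel_left _ h.z_C).1 (h.symm.cent₁ h1.1.1 h1.1.2))
    have hD₂p : D₂ ≤ Z ⊓ Γ.QQ p := by
      intro a ha
      rcases (hD₂ a).1 ha with h1 | h1
      · exact hD₁p h1
      · exact (Subgroup.mul_mem_cancel_left _ (⟨hs, hsp⟩ : s ∈ Z ⊓ Γ.QQ p)).1 (hD₁p h1)
    have h1 := card_le hD₂p
    have h2 := h.hy.le p hpZ hpp
    omega
  have k2 : Z ⊓ Γ.QQ y ⊓ Γ.KK O₂ p ≤ Z ⊓ Γ.QQ y ⊓ Γ.QQ p := by
    intro t ht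
    refine ⟨ht.1, ?_⟩
    by_contra htp
    exact hsC (A.cent_le O₂ h.hO₂ p (h.X_le₂ hp) hpp t ht.2 htp s hsp (h.S.ab s hs t ht.1.1))
  have k3 := card_le k2
  -- another element of `E`
  obtain ⟨l, hl, hl1, hpl⟩ : ∃ l ∈ E, l ≠ 1 ∧ p ≠ l := by
    by_contra hcon
    push Not at hcon
    have hp2 : p * p = 1 := A.sq O₂ h.hO₂ p (hEO hpE)
    obtain ⟨D, hD, -, -, hDc, -⟩ := exists_adj (D := (⊥ : Subgroup G)) (x := p) hp2 (by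
      intro a ha
      rw [Subgroup.mem_bot.1 ha, mul_one, one_mul])
    have h3 : E ≤ D := by
      intro x hx
      rw [hD]
      by_cases hx1 : x = 1
      · left; rw [hx1]; exact Subgroup.one_mem _
      · right
        rw [← hcon x hx hx1, hp2]
        exact Subgroup.one_mem _
    have h4 := card_le h3
    rw [Subgroup.card_bot] at hDc
    rw [hE.card] at h4
    omega
  have hplne : p * l ≠ 1 := by
    intro h'
    apply hpl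
    rw [eq_inv_of_mul_eq_one_left h']
    exact inv_eq A h.hO₂ (hEO hl)
  have h4 := four_elts (le_of_eq hE.card) hpE hl hp1 hl1 hpl hplne
  have h5 := cover (S := Z ⊓ Γ.QQ y) (A := Γ.KK O₂ l) (B := Γ.KK O₂ (p * l)) (C := Γ.KK O₂ p) (by
    intro x hx
    obtain ⟨q, hq, hq1, hxq⟩ := h.ten hs hE hx.1 hx.2
    rcases h4 q hq with h6 | h6 | h6 | h6
    · exact absurd h6 hq1
    · subst h6; exact Or.inr (Or.inr hxq)
    · subst h6; exact Or.inl hxq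
    · subst h6; exact Or.inr (Or.inl hxq)) (by omega)
  rcases h5 with h5 | h5
  · exact ⟨l, hl, hl1, fun s' hs' hsy' => h5 ⟨hs', hsy'⟩⟩
  · exact ⟨p * l, E.mul_mem hpE hl, hplne, fun s' hs' hsy' => h5 ⟨hs', hsy'⟩⟩

/-- the group `F_z` -/
theorem exists_F : ∃ Fz : Subgroup G, ∀ q, q ∈ Fz ↔ q ∈ X ∧ (q = 1 ∨ ∀ s ∈ Z, s ∈ Γ.QQ z → s ∈ Γ.KK O₁ q) := by
  have B := h.F.basic
  have A := h.F.ark
  let K : Subgroup G := {
    carrier := {q | q ∈ X ∧ (q = 1 ∨ ∀ s ∈ Z, s ∈ Γ.QQ z → s ∈ Γ.KK O₁ q)}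
    one_mem' := ⟨X.one_mem, Or.inl rfl⟩
    mul_mem' := by
      rintro a b ⟨ha, ha'⟩ ⟨hb, hb'⟩
      refine ⟨X.mul_mem ha hb, ?_⟩
      by_cases ha1 : a = 1
      · subst ha1; rw [one_mul]; exact hb'
      by_cases hb1 : b = 1
      · subst hb1; rw [mul_one]; exact ha'
      by_cases hab : a = b
      · left; rw [hab]; exact A.sq O₁ h.hO₁ b (h.X_le₁ hb)
      · right
        intro s hs hsz
        exact KK_mul B A h.hO₁ (h.X_le₁ ha) (h.X_le₁ hb) (h.X_pt ha ha1) (h.X_pt hb hb1) hab (h.X_coll ha ha1 hb)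
          (ha'.resolve_left ha1 s hs hsz) (hb'.resolve_left hb1 s hs hsz)
    inv_mem' := by
      rintro a ⟨ha, ha'⟩
      refine ⟨X.inv_mem ha, ?_⟩
      rw [inv_eq A h.hO₁ (h.X_le₁ ha)]
      exact ha' }
  exact ⟨K, fun q => Iff.rfl⟩

/-- (12), first part -/
theorem disj {q : G} (hq : q ∈ X) (hq1 : q ≠ 1) (h1 : ∀ s ∈ Z, s ∈ Γ.QQ z → s ∈ Γ.KK O₁ q)
    (h2 : ∀ s ∈ Z, s ∈ Γ.QQ y → s ∈ Γ.KK O₂ q) : False := by
  have B := h.F.basic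
  have A := h.F.ark
  obtain ⟨Fz, hFz⟩ := h.exists_F
  obtain ⟨Fy, hFy⟩ := h.symm.exists_F
  have hq' : q ∈ Fz ⊓ Fy := ⟨(hFz q).2 ⟨hq, Or.inr h1⟩, (hFy q).2 ⟨hq, Or.inr h2⟩⟩
  obtain ⟨p, hp, hp1, hpT⟩ := fixed h.S.two (E := Fz ⊓ Fy)
    (fun a ha => A.sq O₁ h.hO₁ a (h.X_le₁ ((hFz a).1 ha.1).1)) hq' hq1 (by
      intro t ht a ha
      obtain ⟨ha1, ha2⟩ := ha
      replace ha1 := (hFz a).1 ha1
      replace ha2 := (hFy a).1 ha2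
      have hX := h.X_invT ht ha1.1
      by_cases ha' : a = 1
      · rw [ha', mul_one, mul_inv_cancel]
        exact Subgroup.one_mem _
      · have hap := h.X_pt ha1.1 ha'
        refine ⟨(hFz _).2 ⟨hX, Or.inr ?_⟩, (hFy _).2 ⟨hX, Or.inr ?_⟩⟩
        · intro s hs hsz
          exact norm_KK B A h.hO₁ (h.norm₁T ht) hap (ha1.2.resolve_left ha' s hs hsz) (h.S.comm s hs t ht)
        · intro s hs hsz
          exact norm_KK B A h.hO₂ (h.symm.norm₁T ht) hap (ha2.2.resolve_left ha' s hs hsz) (h.S.comm s hs t ht))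
  have k1 := (hFz p).1 hp.1
  have k2 := (hFy p).1 hp.2
  exact h.six k1.1 (h.S.all p (A.sq O₁ h.hO₁ p (h.X_le₁ k1.1)) hpT) hp1 (k1.2.resolve_left hp1) (k2.2.resolve_left hp1)

/-- (12), second part: `|F_y| = 2` -/
theorem twelve : ∃ f ∈ X, f ≠ 1 ∧ (∀ s ∈ Z, s ∈ Γ.QQ y → s ∈ Γ.KK O₂ f) ∧
    ∀ f' ∈ X, f' ≠ 1 → (∀ s ∈ Z, s ∈ Γ.QQ y → s ∈ Γ.KK O₂ f') → f' = f := by
  have A := h.F.ark
  obtain ⟨s, hs, hsz, hsC⟩ := h.eight
  obtain ⟨E, hE⟩ := h.nine hs hsz hsC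
  obtain ⟨f, hf, hf1, hfy⟩ := h.eleven hs hsz hsC hE
  obtain ⟨s', hs', hsy', hsC'⟩ := h.symm.eight
  obtain ⟨E', hE'⟩ := h.symm.nine hs' hsy' hsC'
  obtain ⟨g, hg, hg1, hgz⟩ := h.symm.eleven hs' hsy' hsC' hE'
  have hfX := ((hE.iff f).1 hf).1
  have hgX := ((hE'.iff g).1 hg).1
  have hfE' : f ∈ E' := (hE'.iff f).2 ⟨hfX, Or.inr (hfy s' hs' hsy')⟩
  have hfg : f ≠ g := by
    rintro rfl
    exact h.disj hfX hf1 hgz hfy
  have hfg1 : f * g ≠ 1 := by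
    intro h'
    apply hfg
    rw [eq_inv_of_mul_eq_one_left h']
    exact inv_eq A h.hO₁ (h.X_le₁ hgX)
  have h4 := four_elts (le_of_eq hE'.card) hfE' hg hf1 hg1 hfg hfg1
  refine ⟨f, hfX, hf1, hfy, ?_⟩
  intro f' hf' hf1' hfy'
  have hfE'' : f' ∈ E' := (hE'.iff f').2 ⟨hf', Or.inr (hfy' s' hs' hsy')⟩
  rcases h4 f' hfE'' with h5 | h5 | h5 | h5
  · exact absurd h5 hf1'
  · exact h5
  · exfalso
    rw [h5] at hfy'
    exact h.disj hgX hg1 hgz hfy'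
  · exfalso
    obtain ⟨Fy, hFy⟩ := h.symm.exists_F
    have k1 : f ∈ Fy := (hFy f).2 ⟨hfX, Or.inr hfy⟩
    have k2 : f' ∈ Fy := (hFy f').2 ⟨hf', Or.inr hfy'⟩
    have k3 : g ∈ Fy := by
      rw [h5] at k2
      exact (Subgroup.mul_mem_cancel_left _ k1).1 k2
    exact h.disj hgX hg1 hgz (((hFy g).1 k3).2.resolve_left hg1)

/-- the contradiction -/
theorem false : False := by
  have A := h.F.ark
  obtain ⟨f, hf, hf1, hfy, huniq⟩ := h.twelve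
  apply h.disj hf hf1 _ hfy
  intro s hs hsz
  by_cases hsC : s ∈ CC O₂
  · exact h.J2 hsz (h.cent₁ hs hsz) hsC hf hf1
  · obtain ⟨E, hE⟩ := h.nine hs hsz hsC
    obtain ⟨l, hl, hl1, hly⟩ := h.eleven hs hsz hsC hE
    have hlE := (hE.iff l).1 hl
    have h1 := huniq l hlE.1 hl1 hly
    rw [← h1]
    exact hlE.2.resolve_left hl1

end Cfg

end Cfsg.Agent.R2.M7.T1
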